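import Mathlib
import Cfsg.Prelude.Def_PLocal
import Cfsg.Agent.Lib.H13.Fix
import Cfsg.Agent.Lib.H13.Coprime
import Cfsg.Agent.Lib.H13.ElemAb
import Cfsg.Agent.Lib.H13.Norm

set_option autoImplicit false
set_option maxHeartbeats 1000000

/-! Abelian offenders on modules for groups of odd order: transvections. -/

namespace H37.AbOff1

open Subgroup
open scoped commutatorElement

universe u

variable {G : Type u} [Group G]

/-- fixed point congruence -/
theorem card_modEq [Finite G] {r : ℕ} [hr : Fact r.Prime] {D M : Subgroup G} (hD : IsPGroup r D)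
    (hDM : D ≤ normalizer (M : Set G)) :
    Nat.card M ≡ Nat.card ↥(M ⊓ centralizer (D : Set G)) [MOD r] := by
  let φ : D →* MulAut M := (M.normalizerMonoidHom).comp (inclusion hDM)
  let _ : MulAction D M := MulAction.compHom M φ
  have h := hD.card_modEq_card_fixedPoints M
  have h2 : Nat.card (MulAction.fixedPoints D M) = Nat.card ↥(M ⊓ centralizer (D : Set G)) := by
    apply Nat.card_congr
    refine ⟨fun x => ⟨(x : M), mem_inf.2 ⟨(x : M).2, ?_⟩⟩, fun x => ⟨⟨x, x.2.1⟩, ?_⟩, fun x => rfl,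
      fun x => rfl⟩
    · rw [mem_centralizer_iff]
      intro d hd
      have h1 : (⟨d, hd⟩ : D) • (x : M) = (x : M) := x.2 ⟨d, hd⟩
      have h3 : d * ((x : M) : G) * d⁻¹ = ((x : M) : G) := congrArg Subtype.val h1
      exact mul_inv_eq_iff_eq_mul.1 h3
    · intro d
      apply Subtype.ext
      have h1 : (d : G) * (x : G) = (x : G) * d := mem_centralizer_iff.1 x.2.2 d d.2
      change (d : G) * (x : G) * (d : G)⁻¹ = (x : G)
      rw [h1, mul_inv_cancel_right]
  rwa [h2] at h

/-- index of an intersection -/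
theorem card_inf_le [Finite G] {A B V : Subgroup G} (hc : V ≤ centralizer (V : Set G)) (hA : A ≤ V)
    (hB : B ≤ V) {m n : ℕ} (h1 : Nat.card V ≤ m * Nat.card A) (h2 : Nat.card V ≤ n * Nat.card B) :
    Nat.card V ≤ (m * n) * Nat.card ↥(A ⊓ B) := by
  have h3 := H13.Thompson.card_sup_mul_card_inf (A := A) (B := B)
    (hA.trans (hc.trans ((centralizer_le (SetLike.coe_subset_coe.2 hB)).trans
      (centralizer_le_normalizer _))))
  have h4 : Nat.card ↥(A ⊔ B) ≤ Nat.card V := card_le_of_le (sup_le hA hB)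
  have h5 : 0 < Nat.card V := Nat.card_pos
  have h6 : Nat.card V * Nat.card V ≤ Nat.card V * ((m * n) * Nat.card ↥(A ⊓ B)) := by
    calc Nat.card V * Nat.card V ≤ (m * Nat.card A) * (n * Nat.card B) := Nat.mul_le_mul h1 h2
      _ = (m * n) * (Nat.card A * Nat.card B) := by ring
      _ = (m * n) * (Nat.card ↥(A ⊔ B) * Nat.card ↥(A ⊓ B)) := by rw [h3]
      _ ≤ (m * n) * (Nat.card V * Nat.card ↥(A ⊓ B)) :=
        Nat.mul_le_mul_left _ (Nat.mul_le_mul_right _ h4)
      _ = Nat.card V * ((m * n) * Nat.card ↥(A ⊓ B)) := by ring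
  exact Nat.le_of_mul_le_mul_left h6 h5

/-- the operator `1 + s` -/
def dl (s : G) (v : G) : G := v * (s * v * s⁻¹)

section dl

variable {V : Subgroup G} {s : G}

theorem dl_mem (hs : s ∈ normalizer (V : Set G)) {v : G} (hv : v ∈ V) : dl s v ∈ V :=
  mul_mem hv ((mem_normalizer_iff.1 hs v).1 hv)

theorem dl_dl (hV : Cfsg.IsElementaryAbelian 2 V) (hs : s ∈ normalizer (V : Set G)) {v : G}
    (hv : v ∈ V) : dl s (dl s v) = dl (s ^ 2) v := by
  have h1 : s * v * s⁻¹ ∈ V := (mem_normalizer_iff.1 hs v).1 hv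
  have h2 : (s * v * s⁻¹) ^ 2 = 1 := hV.2 _ h1
  unfold dl
  calc v * (s * v * s⁻¹) * (s * (v * (s * v * s⁻¹)) * s⁻¹)
      = v * ((s * v * s⁻¹) ^ 2) * (s ^ 2 * v * (s ^ 2)⁻¹) := by rw [pow_two, pow_two]; group
    _ = v * (s ^ 2 * v * (s ^ 2)⁻¹) := by rw [h2, mul_one]

theorem dl_iter (hV : Cfsg.IsElementaryAbelian 2 V) (hs : s ∈ normalizer (V : Set G)) :
    ∀ (j : ℕ) {v : G}, v ∈ V → (dl s)^[2 ^ j] v = dl (s ^ (2 ^ j)) v ∧ (dl s)^[2 ^ j] v ∈ V := by
  intro j
  induction j with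
  | zero =>
    intro v hv
    simp only [pow_zero, Function.iterate_one, pow_one]
    exact ⟨trivial, dl_mem hs hv⟩
  | succ j ih =>
    intro v hv
    obtain ⟨h1, h2⟩ := ih hv
    obtain ⟨h3, h4⟩ := ih h2
    have e : (2 : ℕ) ^ (j + 1) = 2 ^ j + 2 ^ j := by ring
    rw [e, Function.iterate_add_apply]
    refine ⟨?_, h4⟩
    rw [h3, h1, dl_dl hV (pow_mem hs _) hv, ← pow_mul, ← e]
    ring_nf

theorem dl_eq_one_iff (hV : Cfsg.IsElementaryAbelian 2 V) {v : G} (hv : v ∈ V) :
    dl s v = 1 ↔ s * v = v * s := by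
  have h2 : v * v = 1 := by rw [← pow_two]; exact hV.2 _ hv
  unfold dl
  constructor
  · intro h
    have h3 : s * v * s⁻¹ = v⁻¹ := (inv_eq_of_mul_eq_one_right h).symm
    have h4 : v⁻¹ = v := inv_eq_of_mul_eq_one_right h2
    rw [h4] at h3
    exact mul_inv_eq_iff_eq_mul.1 h3
  · intro h
    rw [h, mul_inv_cancel_right, h2]

/-- the chain of fixed points is strictly increasing -/
theorem exists_fixed_sq (hV : Cfsg.IsElementaryAbelian 2 V) (hs : s ∈ normalizer (V : Set G))
    {j : ℕ} (hj : s ^ (2 ^ j) ∈ centralizer (V : Set G)) (hns : s ∉ centralizer (V : Set G)) :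
    ∃ u ∈ V, s ^ 2 * u = u * s ^ 2 ∧ s * u ≠ u * s := by
  classical
  have h0 : ∃ v ∈ V, s * v ≠ v * s := by
    by_contra hcon
    push Not at hcon
    apply hns
    rw [mem_centralizer_iff]
    intro v hv
    exact (hcon v hv).symm
  obtain ⟨v, hv, hsv⟩ := h0
  have hex : ∃ i, (dl s)^[i] v = 1 := by
    refine ⟨2 ^ j, ?_⟩
    rw [(dl_iter hV hs j hv).1, dl_eq_one_iff hV hv]
    exact (mem_centralizer_iff.1 hj v hv).symm
  have hmem : ∀ i, (dl s)^[i] v ∈ V := by
    intro i
    induction i with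
    | zero => exact hv
    | succ i ih =>
      rw [Function.iterate_succ_apply']
      exact dl_mem hs ih
  have hspec := Nat.find_spec hex
  have hmin := fun i => Nat.find_min (m := i) hex
  generalize Nat.find hex = N at hspec hmin
  match N, hspec, hmin with
  | 0, hspec, _ =>
    exfalso
    apply hsv
    have : v = 1 := hspec
    rw [this, one_mul, mul_one]
  | 1, hspec, _ =>
    exfalso
    apply hsv
    exact (dl_eq_one_iff hV hv).1 hspec
  | i + 2, hspec, hmin =>
    refine ⟨(dl s)^[i] v, hmem i, ?_, ?_⟩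
    · rw [Function.iterate_succ_apply', Function.iterate_succ_apply', dl_dl hV hs (hmem i),
        dl_eq_one_iff hV (hmem i)] at hspec
      exact hspec
    · intro h
      rw [← dl_eq_one_iff hV (hmem i), ← Function.iterate_succ_apply' (dl s) i v] at h
      exact hmin (i + 1) (by omega) h

theorem card_chain [Finite G] (hV : Cfsg.IsElementaryAbelian 2 V) (hs : s ∈ normalizer (V : Set G))
    {j : ℕ} (hj : s ^ (2 ^ j) ∈ centralizer (V : Set G)) (hns : s ∉ centralizer (V : Set G)) :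
    2 * Nat.card ↥(V ⊓ centralizer ({s} : Set G)) ≤ Nat.card ↥(V ⊓ centralizer ({s ^ 2} : Set G)) := by
  obtain ⟨u, hu, h1, h2⟩ := exists_fixed_sq hV hs hj hns
  have hlt : V ⊓ centralizer ({s} : Set G) < V ⊓ centralizer ({s ^ 2} : Set G) := by
    refine lt_of_le_of_ne ?_ ?_
    · refine inf_le_inf_left _ ?_
      intro x hx
      rw [mem_centralizer_singleton_iff] at hx ⊢
      exact (show Commute s x from hx.symm).pow_left 2 |>.eq.symm
    · intro h
      apply h2
      have h3 : u ∈ V ⊓ centralizer ({s ^ 2} : Set G) :=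
        ⟨hu, by
          change u ∈ centralizer ({s ^ 2} : Set G)
          rw [mem_centralizer_singleton_iff]
          exact h1.symm⟩
      rw [← h] at h3
      exact (mem_centralizer_singleton_iff.1 h3.2).symm
  obtain ⟨k, hk⟩ := card_dvd_of_le hlt.le
  have hk0 : k ≠ 0 := by
    rintro rfl
    rw [mul_zero] at hk
    exact Nat.card_pos.ne' hk
  have hk1 : k ≠ 1 := by
    rintro rfl
    rw [mul_one] at hk
    exact hlt.ne (eq_of_le_of_card_ge hlt.le hk.le)
  rw [hk, mul_comm]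
  exact Nat.mul_le_mul_left _ (by omega)

end dl

/-- some invariant Sylow subgroup is not centralized -/
theorem exists_sylow [Finite G] {Q : Subgroup G} {a t : G} (haQ : a ∈ normalizer (Q : Set G))
    (hQ : (Nat.card Q).Coprime 2) (ha2 : ∃ k, a ^ (2 ^ k) = 1) (htQ : t ∉ centralizer (Q : Set G)) :
    ∃ r : ℕ, r.Prime ∧ ∃ R : Subgroup G, R ≤ Q ∧ IsPGroup r R ∧ a ∈ normalizer (R : Set G) ∧
      ∃ q ∈ R, t * q ≠ q * t := by
  haveI : Fact (Nat.Prime 2) := ⟨Nat.prime_two⟩
  by_contra hcon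
  push Not at hcon
  have hA : IsPGroup 2 (zpowers a) := by
    obtain ⟨k, hk⟩ := ha2
    rintro ⟨x, hx⟩
    obtain ⟨i, rfl⟩ := mem_zpowers_iff.1 hx
    refine ⟨k, Subtype.ext ?_⟩
    change (a ^ i) ^ 2 ^ k = 1
    rw [← zpow_natCast, ← zpow_mul, mul_comm, zpow_mul, zpow_natCast, hk, one_zpow]
  have hAQ : zpowers a ≤ normalizer (Q : Set G) := by rwa [zpowers_le]
  set H : Subgroup Q := (centralizer ({t} : Set G)).subgroupOf Q with hH
  have hidx : H.index = 1 := by
    by_contra h1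
    obtain ⟨r, hr, hrd⟩ := Nat.exists_prime_and_dvd h1
    haveI : Fact r.Prime := ⟨hr⟩
    obtain ⟨R, hR⟩ := H13.Coprime.exists_invariant_sylow hA hQ hAQ r
    have h2 := hcon r hr ((R : Subgroup Q).map Q.subtype) (map_subtype_le _)
      (R.2.map _) (hR (mem_zpowers a))
    have h3 : (R : Subgroup Q) ≤ H := by
      intro x hx
      rw [hH, mem_subgroupOf, mem_centralizer_singleton_iff]
      exact (h2 _ ⟨x, hx, rfl⟩).symm
    exact R.not_dvd_index (hrd.trans (index_dvd_of_le h3))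
  apply htQ
  rw [mem_centralizer_iff]
  intro q hq
  have h2 : (⟨q, hq⟩ : Q) ∈ H := by
    rw [index_eq_one] at hidx
    rw [hidx]
    exact mem_top _
  rw [hH, mem_subgroupOf, mem_centralizer_singleton_iff] at h2
  exact h2

theorem card_conj_fix [Finite G] {V : Subgroup G} {g t : G} (hg : g ∈ normalizer (V : Set G)) :
    Nat.card ↥(V ⊓ centralizer ({g⁻¹ * t * g} : Set G)) = Nat.card ↥(V ⊓ centralizer ({t} : Set G)) := by
  have h1 : (V ⊓ centralizer ({g⁻¹ * t * g} : Set G)).map (MulAut.conj g).toMonoidHom =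
      V ⊓ centralizer ({t} : Set G) := by
    ext x
    constructor
    · rintro ⟨y, hy, rfl⟩
      obtain ⟨hy1, hy2⟩ := mem_inf.1 hy
      rw [mem_centralizer_singleton_iff] at hy2
      refine mem_inf.2 ⟨(mem_normalizer_iff.1 hg y).1 hy1, ?_⟩
      rw [mem_centralizer_singleton_iff]
      change g * y * g⁻¹ * t = t * (g * y * g⁻¹)
      have h3 : g * (y * (g⁻¹ * t * g)) * g⁻¹ = g * (g⁻¹ * t * g * y) * g⁻¹ := by rw [hy2]
      calc g * y * g⁻¹ * t = g * (y * (g⁻¹ * t * g)) * g⁻¹ := by group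
        _ = g * (g⁻¹ * t * g * y) * g⁻¹ := h3
        _ = t * (g * y * g⁻¹) := by group
    · intro hx
      obtain ⟨hx1, hx2⟩ := mem_inf.1 hx
      rw [mem_centralizer_singleton_iff] at hx2
      refine ⟨g⁻¹ * x * g, mem_inf.2 ⟨?_, ?_⟩, ?_⟩
      · have := (mem_normalizer_iff.1 (inv_mem hg) x).1 hx1
        rwa [inv_inv] at this
      · rw [mem_centralizer_singleton_iff]
        calc g⁻¹ * x * g * (g⁻¹ * t * g) = g⁻¹ * (x * t) * g := by group
          _ = g⁻¹ * (t * x) * g := by rw [hx2]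
          _ = g⁻¹ * t * g * (g⁻¹ * x * g) := by group
      · change g * (g⁻¹ * x * g) * g⁻¹ = x
        group
  rw [← h1, card_map_of_injective (MulAut.conj g).injective]

/-- the commutator of an `r`-group of odd order has order `1` modulo `r` -/
theorem card_comm_modEq [Finite G] {V D : Subgroup G} {r : ℕ} [hr : Fact r.Prime] (hr2 : r ≠ 2)
    (hV : Cfsg.IsElementaryAbelian 2 V) (hD : IsPGroup r D) (hDV : D ≤ normalizer (V : Set G)) :
    Nat.card ↥⁅V, D⁆ ≡ 1 [MOD r] ∧ Nat.card ↥⁅V, D⁆ * Nat.card ↥(V ⊓ centralizer (D : Set G)) = Nat.card V := by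
  haveI : Fact (Nat.Prime 2) := ⟨Nat.prime_two⟩
  have hcop : (Nat.card D).Coprime 2 := by
    obtain ⟨n, hn⟩ := hD.exists_card_eq
    rw [hn]
    exact Nat.Coprime.pow_left n ((Nat.coprime_primes hr.out Nat.prime_two).2 hr2)
  have hc := H13.ElemAb.le_centralizer hV
  have hVp := H13.ElemAb.isPGroup hV
  refine ⟨?_, H13.Fix.card_mul_card hc hVp hcop hDV⟩
  have h1 := card_modEq (M := ⁅V, D⁆) hD (normalizer_commutator_ge_right V D)
  rw [H13.Fix.comm_inf_centralizer hc hVp hcop hDV, card_bot] at h1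
  exact h1

end H37.AbOff1
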