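import Cfsg.Agent.Lib.H37.AbOff1

set_option autoImplicit false
set_option maxHeartbeats 1000000

/-! Abelian offenders: an element of order at least four does not power to a transvection. -/

namespace H37.AbOff2

open Subgroup H37.AbOff1
open scoped commutatorElement

universe u

variable {G : Type u} [Group G]

theorem coprime_of_isPGroup [Finite G] {D : Subgroup G} {r : ℕ} [hr : Fact r.Prime] (hr2 : r ≠ 2)
    (hD : IsPGroup r D) : (Nat.card D).Coprime 2 := by
  obtain ⟨n, hn⟩ := hD.exists_card_eq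
  rw [hn]
  exact Nat.Coprime.pow_left n ((Nat.coprime_primes hr.out Nat.prime_two).2 hr2)

theorem two_pow_le {n m : ℕ} (h : 2 ^ n ≤ m) (hm : m < 2 ^ 4) : n ≤ 3 := by
  by_contra h1
  have h2 : 2 ^ 4 ≤ 2 ^ n := Nat.pow_le_pow_right (by norm_num) (by omega)
  omega

theorem transvection_three [Finite G] {V D : Subgroup G} {r : ℕ} [hr : Fact r.Prime] (hr2 : r ≠ 2)
    (hV : Cfsg.IsElementaryAbelian 2 V) (hD : IsPGroup r D) (hDV : D ≤ normalizer (V : Set G))
    (hne : ¬ D ≤ centralizer (V : Set G)) (h4 : Nat.card V ≤ 4 * Nat.card ↥(V ⊓ centralizer (D : Set G))) :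
    r = 3 := by
  haveI : Fact (Nat.Prime 2) := ⟨Nat.prime_two⟩
  obtain ⟨h1, h2⟩ := card_comm_modEq hr2 hV hD hDV
  have h3 : Nat.card ↥⁅V, D⁆ ≤ 4 := by
    rw [← h2] at h4
    exact Nat.le_of_mul_le_mul_right h4 Nat.card_pos
  have h5 : ⁅V, D⁆ ≠ ⊥ := by
    intro h
    apply hne
    rw [commutator_comm, commutator_eq_bot_iff_le_centralizer] at h
    exact h
  have h6 : IsPGroup 2 ↥⁅V, D⁆ :=
    (H13.ElemAb.isPGroup hV).to_le (H13.Act.comm_le hDV le_rfl)
  obtain ⟨n, hn⟩ := h6.exists_card_eq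
  have hn0 : n ≠ 0 := by
    rintro rfl
    rw [pow_zero] at hn
    exact h5 (card_eq_one.1 hn)
  rw [hn] at h1 h3
  have hn3 := two_pow_le h3 (by norm_num)
  interval_cases n
  · exact absurd rfl hn0
  · exfalso
    have h7 := (Nat.modEq_iff_dvd' (by norm_num : 1 ≤ 2 ^ 1)).1 h1.symm
    have := Nat.le_of_dvd (by norm_num) h7
    have := hr.out.two_le
    omega
  · have h7 := (Nat.modEq_iff_dvd' (by norm_num : 1 ≤ 2 ^ 2)).1 h1.symm
    exact (Nat.prime_dvd_prime_iff_eq hr.out Nat.prime_three).1 h7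
  · norm_num at h3

theorem card_le_three [Finite G] {V D : Subgroup G}
    (hV : Cfsg.IsElementaryAbelian 2 V) (hD : IsPGroup 3 D) (hDV : D ≤ normalizer (V : Set G))
    (hne : D ≠ ⊥) (hf : D ⊓ centralizer (V : Set G) = ⊥)
    (h8 : Nat.card V ≤ 8 * Nat.card ↥(V ⊓ centralizer (D : Set G))) :
    Nat.card D ≤ 3 := by
  haveI : Fact (Nat.Prime 2) := ⟨Nat.prime_two⟩
  haveI : Fact (Nat.Prime 3) := ⟨Nat.prime_three⟩
  have hc := H13.ElemAb.le_centralizer hV
  have hVp := H13.ElemAb.isPGroup hV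
  have hcop := coprime_of_isPGroup (by norm_num : (3 : ℕ) ≠ 2) hD
  obtain ⟨h1, h2⟩ := card_comm_modEq (by norm_num) hV hD hDV
  have h3 : Nat.card ↥⁅V, D⁆ ≤ 8 := by
    rw [← h2] at h8
    exact Nat.le_of_mul_le_mul_right h8 Nat.card_pos
  have hMV : ⁅V, D⁆ ≤ V := H13.Act.comm_le hDV le_rfl
  have h5 : ⁅V, D⁆ ≠ ⊥ := by
    intro h
    rw [commutator_comm, commutator_eq_bot_iff_le_centralizer] at h
    apply hne
    rw [← hf]
    exact (inf_eq_left.2 h).symm
  have h6 : IsPGroup 2 ↥⁅V, D⁆ := hVp.to_le hMV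
  have h4 : Nat.card ↥⁅V, D⁆ = 4 := by
    obtain ⟨n, hn⟩ := h6.exists_card_eq
    have hn0 : n ≠ 0 := by
      rintro rfl
      rw [pow_zero] at hn
      exact h5 (card_eq_one.1 hn)
    rw [hn] at h1 h3 ⊢
    have hn3 := two_pow_le h3 (by norm_num)
    interval_cases n
    · exact absurd rfl hn0
    · exfalso
      revert h1
      decide
    · norm_num
    · exfalso
      revert h1
      decide
  obtain ⟨m, hm, hm1⟩ : ∃ m : G, m ∈ ⁅V, D⁆ ∧ m ≠ 1 := by
    by_contra hcon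
    push Not at hcon
    apply h5
    rw [eq_bot_iff]
    intro x hx
    rw [mem_bot]
    exact hcon x hx
  have hDM : D ≤ normalizer ((⁅V, D⁆ : Subgroup G) : Set G) := normalizer_commutator_ge_right V D
  have hfix : ∀ e ∈ D, e * m = m * e → e = 1 := by
    intro e he hem
    have hE : IsPGroup 3 (zpowers e) := hD.to_le (by rwa [zpowers_le])
    have h7 := card_modEq (M := ⁅V, D⁆) hE ((by rwa [zpowers_le] : zpowers e ≤ D).trans hDM)
    rw [h4] at h7
    have h8 : m ∈ ⁅V, D⁆ ⊓ centralizer (zpowers e : Set G) := by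
      refine mem_inf.2 ⟨hm, ?_⟩
      rw [mem_centralizer_iff]
      intro x hx
      obtain ⟨i, rfl⟩ := mem_zpowers_iff.1 hx
      exact ((show Commute e m from hem).zpow_left i).eq
    have h9 : Nat.card ↥(⁅V, D⁆ ⊓ centralizer (zpowers e : Set G)) ∣ 4 := by
      rw [← h4]
      exact card_dvd_of_le inf_le_left
    have h10 : Nat.card ↥(⁅V, D⁆ ⊓ centralizer (zpowers e : Set G)) ≠ 1 := by
      intro h
      rw [card_eq_one] at h
      rw [h, mem_bot] at h8
      exact hm1 h8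
    have h11 : Nat.card ↥(⁅V, D⁆ ⊓ centralizer (zpowers e : Set G)) = 4 := by
      have h12 : Nat.card ↥(⁅V, D⁆ ⊓ centralizer (zpowers e : Set G)) ≤ 4 := Nat.le_of_dvd (by norm_num) h9
      generalize Nat.card ↥(⁅V, D⁆ ⊓ centralizer (zpowers e : Set G)) = c at *
      interval_cases c
      · norm_num at h9
      · exact absurd rfl h10
      · exfalso
        revert h7
        decide
      · norm_num at h9
      · rfl
    have h13 : ⁅V, D⁆ ≤ centralizer (zpowers e : Set G) := by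
      have := eq_of_le_of_card_ge (inf_le_left : ⁅V, D⁆ ⊓ centralizer (zpowers e : Set G) ≤ _) (by rw [h11, h4])
      exact inf_eq_left.1 this
    have h14 : V ≤ centralizer (zpowers e : Set G) := by
      rw [← H13.Fix.comm_sup_centralizer hc hVp hcop hDV]
      refine sup_le h13 (inf_le_right.trans (centralizer_le ?_))
      have : zpowers e ≤ D := by rwa [zpowers_le]
      exact this
    have h15 : e ∈ D ⊓ centralizer (V : Set G) := by
      refine mem_inf.2 ⟨he, ?_⟩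
      exact (le_centralizer_iff.1 h14) (mem_zpowers e)
    rw [hf, mem_bot] at h15
    exact h15
  classical
  haveI : Fintype ↥⁅V, D⁆ := Fintype.ofFinite _
  let f : D → {x : ↥⁅V, D⁆ // x ≠ 1} := fun d => ⟨⟨d * m * (d : G)⁻¹, (mem_normalizer_iff.1 (hDM d.2) m).1 hm⟩, by
    intro h
    have h1 : (d : G) * m * (d : G)⁻¹ = 1 := congrArg Subtype.val h
    apply hm1
    calc m = (d : G)⁻¹ * ((d : G) * m * (d : G)⁻¹) * d := by group
      _ = 1 := by rw [h1]; group⟩
  have hinj : Function.Injective f := by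
    intro d₁ d₂ h
    have h1 : (d₁ : G) * m * (d₁ : G)⁻¹ = (d₂ : G) * m * (d₂ : G)⁻¹ :=
      congrArg (fun x : {x : ↥⁅V, D⁆ // x ≠ 1} => ((x : ↥⁅V, D⁆) : G)) h
    have h2 := hfix ((d₂ : G)⁻¹ * d₁) (mul_mem (inv_mem d₂.2) d₁.2) (by
      calc (d₂ : G)⁻¹ * d₁ * m = (d₂ : G)⁻¹ * (d₁ * m * (d₁ : G)⁻¹) * d₁ := by group
        _ = (d₂ : G)⁻¹ * ((d₂ : G) * m * (d₂ : G)⁻¹) * d₁ := by rw [h1]
        _ = m * ((d₂ : G)⁻¹ * d₁) := by group)
    apply Subtype.ext
    exact (inv_mul_eq_one.1 h2).symm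
  have h16 := Nat.card_le_card_of_injective f hinj
  have h17 : Nat.card {x : ↥⁅V, D⁆ // x ≠ 1} = 3 := by
    rw [Nat.card_eq_fintype_card, Fintype.card_subtype_compl, Fintype.card_subtype_eq, ← Nat.card_eq_fintype_card, h4]
  rw [h17] at h16
  exact h16

/-- no transvection is a proper power -/
theorem no_transvection [Finite G] {V Q : Subgroup G} {a t : G}
    (hV : Cfsg.IsElementaryAbelian 2 V) (haV : a ∈ normalizer (V : Set G))
    (haQ : a ∈ normalizer (Q : Set G)) (hQV : Q ≤ normalizer (V : Set G))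
    (hQ : (Nat.card Q).Coprime 2) (hf : Q ⊓ centralizer (V : Set G) = ⊥)
    (ha2 : ∃ k, a ^ (2 ^ k) = 1) (ht : t ∈ zpowers (a ^ 2)) (htQ : t ∉ centralizer (Q : Set G))
    (ht2 : t ^ 2 ∈ centralizer (Q : Set G))
    (hidx : Nat.card V ≤ 2 * Nat.card ↥(V ⊓ centralizer ({t} : Set G))) : False := by
  haveI : Fact (Nat.Prime 2) := ⟨Nat.prime_two⟩
  have hc := H13.ElemAb.le_centralizer hV
  obtain ⟨r, hr, R, hRQ, hR, haR, q, hq, htq⟩ := exists_sylow haQ hQ ha2 htQ
  haveI : Fact r.Prime := ⟨hr⟩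
  have hta : t ∈ zpowers a := by
    obtain ⟨i, rfl⟩ := mem_zpowers_iff.1 ht
    exact zpow_mem (pow_mem (mem_zpowers a) 2) i
  have htR : t ∈ normalizer (R : Set G) := by
    have : zpowers a ≤ normalizer (R : Set G) := by rwa [zpowers_le]
    exact this hta
  have hat : a * t = t * a := by
    obtain ⟨i, rfl⟩ := mem_zpowers_iff.1 hta
    exact (Commute.refl a).zpow_right i
  obtain ⟨w, hw⟩ : ∃ w, w = q⁻¹ * t⁻¹ * q * t := ⟨_, rfl⟩
  have hwR : w ∈ R := by
    have h1 : t⁻¹ * q * t ∈ R := by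
      have := (mem_normalizer_iff.1 (inv_mem htR) q).1 hq
      rwa [inv_inv] at this
    have h2 : w = q⁻¹ * (t⁻¹ * q * t) := by rw [hw]; group
    rw [h2]
    exact mul_mem (inv_mem hq) h1
  have hw1 : w ≠ 1 := by
    intro h
    apply htq
    rw [hw] at h
    have h1 : q * t * (q⁻¹ * t⁻¹ * q * t) = q * t := by rw [h, mul_one]
    have h2 : t * q = q * t := by
      have h3 : q⁻¹ * t⁻¹ * q * t = 1 := h
      calc t * q = t * q * (q⁻¹ * t⁻¹ * q * t) := by rw [h3, mul_one]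
        _ = q * t := by group
    exact h2
  have htw : t⁻¹ * w * t = w⁻¹ := by
    have h1 : t ^ 2 * q = q * t ^ 2 := (mem_centralizer_iff.1 ht2 q (hRQ hq)).symm
    have h2 : t⁻¹ * (q * t ^ 2) = t⁻¹ * (t ^ 2 * q) := by rw [h1]
    rw [hw]
    calc t⁻¹ * (q⁻¹ * t⁻¹ * q * t) * t = t⁻¹ * q⁻¹ * (t⁻¹ * (q * t ^ 2)) := by rw [pow_two]; group
      _ = t⁻¹ * q⁻¹ * (t⁻¹ * (t ^ 2 * q)) := by rw [h2]
      _ = (q⁻¹ * t⁻¹ * q * t)⁻¹ := by rw [pow_two]; group
  obtain ⟨q', hq'⟩ : ∃ q', q' = a⁻¹ * q * a := ⟨_, rfl⟩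
  have hq'R : q' ∈ R := by
    have := (mem_normalizer_iff.1 (inv_mem haR) q).1 hq
    rw [inv_inv] at this
    rwa [hq']
  obtain ⟨w', hw'⟩ : ∃ w', w' = a⁻¹ * w * a := ⟨_, rfl⟩
  have hw'R : w' ∈ R := by
    have := (mem_normalizer_iff.1 (inv_mem haR) w).1 hwR
    rw [inv_inv] at this
    rwa [hw']
  have hw'q : w' = q'⁻¹ * t⁻¹ * q' * t := by
    have h1 : a⁻¹ * t⁻¹ * a = t⁻¹ := by
      have h0 : a⁻¹ * t⁻¹ = t⁻¹ * a⁻¹ := by
        have := congrArg (·⁻¹) hat
        simp only [mul_inv_rev] at this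
        exact this.symm
      rw [h0]; group
    have h2 : a⁻¹ * t * a = t := by
      rw [mul_assoc, ← hat]; group
    rw [hw', hw, hq']
    calc a⁻¹ * (q⁻¹ * t⁻¹ * q * t) * a
        = (a⁻¹ * q * a)⁻¹ * (a⁻¹ * t⁻¹ * a) * (a⁻¹ * q * a) * (a⁻¹ * t * a) := by group
      _ = _ := by rw [h1, h2]
  have hr2 : r ≠ 2 := by
    rintro rfl
    have h1 : R = ⊥ := by
      have h2 : (Nat.card R).Coprime 2 := H13.Coprime.coprime_of_le hRQ hQ
      obtain ⟨n, hn⟩ := hR.exists_card_eq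
      rw [hn] at h2
      have hn0 : n = 0 := by
        by_contra h
        have h3 := (Nat.coprime_pow_left_iff (Nat.pos_of_ne_zero h) 2 2).1 h2
        norm_num at h3
      rw [hn0, pow_zero] at hn
      exact card_eq_one.1 hn
    rw [h1, mem_bot] at hwR
    exact hw1 hwR
  have hRV : R ≤ normalizer (V : Set G) := hRQ.trans hQV
  -- fixed points
  have hU1 : Nat.card V ≤ 2 * Nat.card ↥(V ⊓ centralizer ({t} : Set G)) := hidx
  have hU : ∀ g ∈ R, Nat.card V ≤ 2 * Nat.card ↥(V ⊓ centralizer ({g⁻¹ * t * g} : Set G)) := by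
    intro g hg
    rw [card_conj_fix (hRV hg)]
    exact hidx
  have hwfix : ∀ g : G, (V ⊓ centralizer ({t} : Set G)) ⊓ (V ⊓ centralizer ({g⁻¹ * t * g} : Set G)) ≤
      V ⊓ centralizer ({g⁻¹ * t⁻¹ * g * t} : Set G) := by
    intro g x hx
    obtain ⟨⟨hx1, hx2⟩, ⟨-, hx3⟩⟩ := hx
    refine mem_inf.2 ⟨hx1, ?_⟩
    have h2 := mem_centralizer_singleton_iff.1 hx2
    have h3 := mem_centralizer_singleton_iff.1 hx3
    rw [mem_centralizer_singleton_iff]
    have h4 : g⁻¹ * t⁻¹ * g * t = (g⁻¹ * t * g)⁻¹ * t := by group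
    rw [h4]
    exact ((show Commute x (g⁻¹ * t * g) from h3).inv_right.mul_right (show Commute x t from h2)).eq
  have hcl : ∀ y : G, V ⊓ centralizer ({y} : Set G) ≤ V ⊓ centralizer (zpowers y : Set G) := by
    intro y x hx
    obtain ⟨hx1, hx2⟩ := mem_inf.1 hx
    rw [mem_centralizer_singleton_iff] at hx2
    refine mem_inf.2 ⟨hx1, ?_⟩
    rw [mem_centralizer_iff]
    intro z hz
    obtain ⟨i, rfl⟩ := mem_zpowers_iff.1 hz
    exact ((show Commute y x from hx2.symm).zpow_left i).eq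
  have hnc : ∀ y ∈ R, y ≠ 1 → y ∉ centralizer (V : Set G) := by
    intro y hy hy1 h
    have : y ∈ Q ⊓ centralizer (V : Set G) := mem_inf.2 ⟨hRQ hy, h⟩
    rw [hf, mem_bot] at this
    exact hy1 this
  have h4 := card_inf_le hc inf_le_left inf_le_left hU1 (hU q hq)
  have h4' : Nat.card V ≤ 4 * Nat.card ↥(V ⊓ centralizer (zpowers w : Set G)) := by
    refine h4.trans (Nat.mul_le_mul (by norm_num) (card_le_of_le ?_))
    refine (hwfix q).trans ?_
    rw [← hw]
    exact hcl w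
  have hzR : zpowers w ≤ R := by rwa [zpowers_le]
  have hr3 : r = 3 := transvection_three hr2 hV (hR.to_le hzR) (hzR.trans hRV)
    (fun h => hnc w hwR hw1 (h (mem_zpowers w))) h4'
  subst hr3
  obtain ⟨D, hD⟩ : ∃ D, D = zpowers w ⊔ zpowers w' := ⟨_, rfl⟩
  have hDR : D ≤ R := by rw [hD]; exact sup_le hzR (by rwa [zpowers_le])
  have h8 := card_inf_le hc (inf_le_left.trans inf_le_left) inf_le_left h4 (hU q' hq'R)
  have h8' : Nat.card V ≤ 8 * Nat.card ↥(V ⊓ centralizer (D : Set G)) := by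
    refine h8.trans (Nat.mul_le_mul (by norm_num) (card_le_of_le ?_))
    intro x hx
    obtain ⟨⟨hx1, hx2⟩, hx3⟩ := hx
    have e1 := (mem_inf.1 (hcl w (by rw [hw]; exact hwfix q (mem_inf.2 ⟨hx1, hx2⟩)))).2
    have e2 := (mem_inf.1 (hcl w' (by rw [hw'q]; exact hwfix q' (mem_inf.2 ⟨hx1, hx3⟩)))).2
    refine mem_inf.2 ⟨(mem_inf.1 hx1).1, ?_⟩
    rw [hD, H13.Norm.centralizer_sup]
    exact mem_inf.2 ⟨e1, e2⟩
  have hwD : w ∈ D := by rw [hD]; exact mem_sup_left (mem_zpowers w)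
  have hw'D : w' ∈ D := by rw [hD]; exact mem_sup_right (mem_zpowers w')
  have hD3 : IsPGroup 3 D := hR.to_le hDR
  have hDc := card_le_three hV hD3 (hDR.trans hRV) (by
    intro h
    rw [h, mem_bot] at hwD
    exact hw1 hwD) (by
    rw [eq_bot_iff, ← hf]
    exact inf_le_inf_right _ (hDR.trans hRQ)) h8'
  have hw3 : w ^ 3 = 1 := by
    have h1 : orderOf w ∣ Nat.card D := Subgroup.orderOf_dvd_natCard D hwD
    obtain ⟨n, hn⟩ := hD3.exists_card_eq
    rw [hn] at h1 hDc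
    have hn1 : n ≤ 1 := by
      by_contra h
      have : 3 ^ 2 ≤ 3 ^ n := Nat.pow_le_pow_right (by norm_num) (by omega)
      omega
    have h2 : (3 : ℕ) ^ n ∣ 3 := by
      have := pow_dvd_pow 3 hn1
      simpa using this
    exact orderOf_dvd_iff_pow_eq_one.1 (h1.trans h2)
  have how : orderOf w = 3 := orderOf_eq_prime hw3 hw1
  have hDw : zpowers w = D := by
    apply eq_of_le_of_card_ge
    · rw [hD]; exact le_sup_left
    · rw [Nat.card_zpowers, how]
      exact hDc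
  have hcomm : a ^ 2 * w = w * a ^ 2 := by
    classical
    have h1 : w' ∈ zpowers w := by rw [hDw]; exact hw'D
    rw [mem_zpowers_iff_mem_range_orderOf, how] at h1
    simp only [Finset.mem_image, Finset.mem_range] at h1
    obtain ⟨i, hi, hi'⟩ := h1
    have h2 : a⁻¹ * w * a = w ^ i := by rw [← hw', ← hi']
    have h3 : (a ^ 2)⁻¹ * w * a ^ 2 = w ^ (i * i) := by
      calc (a ^ 2)⁻¹ * w * a ^ 2 = a⁻¹ * (a⁻¹ * w * a) * a := by rw [pow_two]; group
        _ = a⁻¹ * w ^ i * a := by rw [h2]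
        _ = (a⁻¹ * w * a) ^ i := by
          have := (MulAut.conj a⁻¹).toMonoidHom.map_pow w i
          simp only [MulEquiv.coe_toMonoidHom, MulAut.conj_apply, inv_inv] at this
          exact this
        _ = w ^ (i * i) := by rw [h2, pow_mul]
    have h4 : w ^ (i * i) = w := by
      interval_cases i
      · exfalso
        rw [pow_zero] at h2
        apply hw1
        calc w = a * (a⁻¹ * w * a) * a⁻¹ := by group
          _ = 1 := by rw [h2]; group
      · simp
      · calc w ^ (2 * 2) = w ^ 3 * w := by rw [← pow_succ]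
          _ = w := by rw [hw3, one_mul]
    rw [h4] at h3
    calc a ^ 2 * w = a ^ 2 * ((a ^ 2)⁻¹ * w * a ^ 2) := by rw [h3]
      _ = w * a ^ 2 := by group
  have htw2 : t * w = w * t := by
    obtain ⟨i, rfl⟩ := mem_zpowers_iff.1 ht
    exact ((show Commute (a ^ 2) w from hcomm).zpow_left i).eq
  apply hw1
  have h1 : t⁻¹ * w * t = w := by rw [mul_assoc, ← htw2]; group
  rw [h1] at htw
  have h2 : w * w = 1 := by
    nth_rw 2 [htw]
    exact mul_inv_cancel w
  calc w = w * (w * w) * (w * w)⁻¹ := by group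
    _ = w ^ 3 * (w * w)⁻¹ := by rw [pow_succ, pow_two]; group
    _ = 1 := by rw [hw3, h2]; group

end H37.AbOff2
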