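import Cfsg.Agent.Lib.H37.AbOff2
import Cfsg.Agent.Lib.H54.ExtraNine1
import Cfsg.Agent.Lib.H1.Coprime2

set_option autoImplicit false
set_option maxHeartbeats 1000000

/-! Abelian offenders: the bound. -/

namespace H37.AbOff3

open Subgroup H37.AbOff1 H37.AbOff2
open scoped commutatorElement

universe u

variable {G : Type u} [Group G]

/-- elements centralizing `V` and normalizing `Q` centralize `Q` -/
theorem mem_centralizer_of {V Q : Subgroup G} {s : G} (hsQ : s ∈ normalizer (Q : Set G))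
    (hQV : Q ≤ normalizer (V : Set G)) (hf : Q ⊓ centralizer (V : Set G) = ⊥)
    (hs : s ∈ centralizer (V : Set G)) : s ∈ centralizer (Q : Set G) := by
  rw [mem_centralizer_iff]
  intro q hq
  have h1 : s * q * s⁻¹ * q⁻¹ ∈ Q := mul_mem ((mem_normalizer_iff.1 hsQ q).1 hq) (inv_mem hq)
  have h2 : s * q * s⁻¹ * q⁻¹ ∈ centralizer (V : Set G) := by
    have h3 : q * s⁻¹ * q⁻¹ ∈ centralizer (V : Set G) :=
      (mem_normalizer_iff.1 (H13.Norm.normalizer_le_normalizer_centralizer V (hQV hq)) s⁻¹).1 (inv_mem hs)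
    have h4 : s * q * s⁻¹ * q⁻¹ = s * (q * s⁻¹ * q⁻¹) := by group
    rw [h4]
    exact mul_mem hs h3
  have h3 : s * q * s⁻¹ * q⁻¹ ∈ Q ⊓ centralizer (V : Set G) := mem_inf.2 ⟨h1, h2⟩
  rw [hf, mem_bot, mul_inv_eq_one, mul_inv_eq_iff_eq_mul] at h3
  exact h3.symm

/-- cyclicity -/
theorem exists_gen [Finite G] {A Q : Subgroup G} (hA : IsPGroup 2 A)
    (hAc : A ≤ centralizer (A : Set G)) (hAQ : A ≤ normalizer (Q : Set G))
    (hQ : (Nat.card Q).Coprime 2) {a₀ : G} (ha₀ : a₀ ∈ A) (ha₀Q : a₀ ∉ centralizer (Q : Set G))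
    (hno : ∀ R : Subgroup G, R ≤ Q → A ≤ normalizer (R : Set G) → a₀ ∉ centralizer (R : Set G) →
      A ⊓ centralizer (R : Set G) ≤ centralizer (Q : Set G)) :
    ∃ a ∈ A, ∀ x ∈ A, ∃ i : ℤ, a ^ i * x⁻¹ ∈ centralizer (Q : Set G) := by
  haveI : Fact (Nat.Prime 2) := ⟨Nat.prime_two⟩
  obtain ⟨φ, hφ⟩ : ∃ φ : A →* MulAut Q, ∀ (a : A) (q : Q), ((φ a q : Q) : G) = a * q * (a : G)⁻¹ :=
    ⟨(Q.normalizerMonoidHom).comp (inclusion hAQ), fun a q => rfl⟩
  have hker : ∀ a : A, φ a = 1 ↔ (a : G) ∈ centralizer (Q : Set G) := by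
    intro a
    rw [mem_centralizer_iff]
    constructor
    · intro h q hq
      have h1 := hφ a ⟨q, hq⟩
      rw [h] at h1
      have h2 : q = a * q * (a : G)⁻¹ := h1
      exact (mul_inv_eq_iff_eq_mul.1 h2.symm).symm
    · intro h
      apply MulEquiv.ext
      intro q
      apply Subtype.ext
      rw [hφ, ← h q q.2, mul_inv_cancel_right]
      rfl
  have hab : ∀ x y : A, x * y = y * x := fun x y => Subtype.ext (mem_centralizer_iff.1 (hAc y.2) x x.2)
  by_cases hcyc : IsCyclic φ.range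
  · obtain ⟨⟨_, a, rfl⟩, hg⟩ := hcyc.exists_generator
    refine ⟨a, a.2, ?_⟩
    intro x hx
    obtain ⟨i, hi⟩ := mem_zpowers_iff.1 (hg ⟨φ ⟨x, hx⟩, ⟨_, rfl⟩⟩)
    refine ⟨i, ?_⟩
    have h1 : φ a ^ i = φ ⟨x, hx⟩ := congrArg Subtype.val hi
    have h2 : φ (a ^ i * ⟨x, hx⟩⁻¹) = 1 := by
      rw [map_mul, map_zpow, map_inv, h1, mul_inv_cancel]
    have h3 := (hker _).1 h2
    simpa using h3
  · exfalso
    apply ha₀Q
    have h1 := H54.ExtraNine.gen_fix φ.range ?_ hcyc ?_ ⊤ ((centralizer ({a₀} : Set G)).subgroupOf Q) ?_ ?_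
    · rw [mem_centralizer_iff]
      intro q hq
      have h2 := h1 (mem_top (⟨q, hq⟩ : Q))
      rw [mem_subgroupOf, mem_centralizer_singleton_iff] at h2
      exact h2
    · rintro _ ⟨a, rfl⟩ _ ⟨b, rfl⟩
      rw [← map_mul, ← map_mul, hab]
    · have h2 : Nat.card φ.range ∣ Nat.card A := Subgroup.card_range_dvd φ
      refine Nat.Coprime.coprime_dvd_left h2 ?_
      obtain ⟨n, hn⟩ := hA.exists_card_eq
      rw [hn]
      exact Nat.Coprime.pow_left n hQ.symm
    · intro e _ x _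
      exact mem_top _
    · rintro _ ⟨b, rfl⟩ hb1 x - hx
      rw [mem_subgroupOf, mem_centralizer_singleton_iff]
      have hbQ : (b : G) ∉ centralizer (Q : Set G) := fun h => hb1 ((hker b).2 h)
      have hxR : (x : G) ∈ Q ⊓ centralizer ({(b : G)} : Set G) := by
        refine mem_inf.2 ⟨x.2, ?_⟩
        rw [mem_centralizer_singleton_iff]
        have h2 := hφ b x
        rw [hx] at h2
        exact (mul_inv_eq_iff_eq_mul.1 h2.symm).symm
      have hAR : A ≤ normalizer ((Q ⊓ centralizer ({(b : G)} : Set G) : Subgroup G) : Set G) := by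
        have key : ∀ a ∈ A, ∀ y ∈ Q ⊓ centralizer ({(b : G)} : Set G),
            a * y * a⁻¹ ∈ Q ⊓ centralizer ({(b : G)} : Set G) := by
          intro a ha y hy
          obtain ⟨hy1, hy2⟩ := mem_inf.1 hy
          rw [mem_centralizer_singleton_iff] at hy2
          refine mem_inf.2 ⟨(mem_normalizer_iff.1 (hAQ ha) y).1 hy1, ?_⟩
          rw [mem_centralizer_singleton_iff]
          have h3 : a * b = b * a := congrArg Subtype.val (hab ⟨a, ha⟩ b)
          have h4 : Commute a b := h3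
          have h5 : Commute y (b : G) := hy2
          exact ((h4.mul_left h5).mul_left h4.inv_left).eq
        intro a ha
        refine H13.Norm.mem_normalizer_of (key a ha) ?_
        intro y hy
        have := key a⁻¹ (inv_mem ha) y hy
        rwa [inv_inv] at this
      by_contra hcon
      apply hbQ
      refine hno _ inf_le_left hAR ?_ (mem_inf.2 ⟨b.2, ?_⟩)
      · intro h
        exact hcon (mem_centralizer_iff.1 h x hxR)
      · rw [mem_centralizer_iff]
        intro y hy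
        exact mem_centralizer_singleton_iff.1 (mem_inf.1 hy).2

/-- the cyclic case -/
theorem cyclic_case [Finite G] {A Q V : Subgroup G} {n : ℕ}
    (hn : Nat.card A = n * Nat.card ↥(A ⊓ centralizer (Q : Set G))) (hA : IsPGroup 2 A)
    (hAc : A ≤ centralizer (A : Set G)) (hV : Cfsg.IsElementaryAbelian 2 V)
    (hAV : A ≤ normalizer (V : Set G)) (hAQ : A ≤ normalizer (Q : Set G))
    (hQV : Q ≤ normalizer (V : Set G)) (hQ : (Nat.card Q).Coprime 2)
    (hf : Q ⊓ centralizer (V : Set G) = ⊥)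
    (hk : A ⊓ centralizer (Q : Set G) ≤ centralizer (V : Set G))
    {a : G} (ha : a ∈ A) (hgen : ∀ x ∈ A, ∃ i : ℤ, a ^ i * x⁻¹ ∈ centralizer (Q : Set G)) :
    n * Nat.card ↥(V ⊓ centralizer (A : Set G)) ≤ Nat.card V ∧
      (n * Nat.card ↥(V ⊓ centralizer (A : Set G)) = Nat.card V → ∀ a ∈ A, a ^ 2 ∈ centralizer (Q : Set G)) := by
  classical
  have hab : ∀ x ∈ A, ∀ y ∈ A, x * y = y * x := fun x hx y hy => mem_centralizer_iff.1 (hAc hy) x hx
  have hex : ∃ k, a ^ (2 ^ k) ∈ centralizer (Q : Set G) := by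
    obtain ⟨k, hk⟩ := hA ⟨a, ha⟩
    refine ⟨k, ?_⟩
    have : a ^ (2 ^ k) = 1 := congrArg Subtype.val hk
    rw [this]
    exact one_mem _
  have ha2 : ∃ k, a ^ (2 ^ k) = 1 := by
    obtain ⟨k, hk⟩ := hA ⟨a, ha⟩
    exact ⟨k, congrArg Subtype.val hk⟩
  obtain ⟨k, hspec, hmin⟩ : ∃ k, a ^ (2 ^ k) ∈ centralizer (Q : Set G) ∧
      ∀ i < k, a ^ (2 ^ i) ∉ centralizer (Q : Set G) :=
    ⟨Nat.find hex, Nat.find_spec hex, fun i hi => Nat.find_min hex hi⟩
  have hkV : a ^ (2 ^ k) ∈ centralizer (V : Set G) := hk (mem_inf.2 ⟨pow_mem ha _, hspec⟩)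
  -- decomposition
  have hdec : ∀ x ∈ A, ∃ i : ℕ, i < 2 ^ k ∧ ∃ c ∈ A ⊓ centralizer (Q : Set G), x = a ^ i * c := by
    intro x hx
    obtain ⟨i, hi⟩ := hgen x hx
    have hpos : (0 : ℤ) < ((2 ^ k : ℕ) : ℤ) := by positivity
    have h1 := Int.emod_nonneg i hpos.ne'
    have h2 := Int.emod_lt_of_pos i hpos
    obtain ⟨j, hj⟩ := Int.eq_ofNat_of_zero_le h1
    refine ⟨j, by omega, (a ^ j)⁻¹ * x, mem_inf.2 ⟨mul_mem (inv_mem (pow_mem ha j)) hx, ?_⟩, by group⟩
    have h3 : a ^ i = a ^ j * (a ^ (2 ^ k)) ^ (i / ((2 ^ k : ℕ) : ℤ)) := by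
      rw [← zpow_natCast a j, ← zpow_natCast a (2 ^ k), ← zpow_mul, ← zpow_add]
      congr 1
      have := Int.emod_add_mul_ediv i ((2 ^ k : ℕ) : ℤ)
      rw [hj] at this
      exact this.symm
    have h4 : (a ^ i)⁻¹ * x ∈ centralizer (Q : Set G) := by
      have h5 : (a ^ i)⁻¹ * x = (a ^ i * x⁻¹)⁻¹ := by
        have h6 : a ^ i * x⁻¹ = x⁻¹ * a ^ i := hab _ (zpow_mem ha i) _ (inv_mem hx)
        rw [h6, mul_inv_rev, inv_inv]
      rw [h5]
      exact inv_mem hi
    have h5 : (a ^ j)⁻¹ * x = (a ^ (2 ^ k)) ^ (i / ((2 ^ k : ℕ) : ℤ)) * ((a ^ i)⁻¹ * x) := by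
      rw [h3]; group
    rw [h5]
    exact mul_mem (zpow_mem hspec _) h4
  have hnle : n ≤ 2 ^ k := by
    have h1 : Nat.card A ≤ 2 ^ k * Nat.card ↥(A ⊓ centralizer (Q : Set G)) := by
      let f : Fin (2 ^ k) × ↥(A ⊓ centralizer (Q : Set G)) → A := fun x =>
        ⟨a ^ (x.1 : ℕ) * x.2, mul_mem (pow_mem ha _) (mem_inf.1 x.2.2).1⟩
      have hf : Function.Surjective f := by
        rintro ⟨x, hx⟩
        obtain ⟨i, hi, c, hc, rfl⟩ := hdec x hx
        exact ⟨(⟨i, hi⟩, ⟨c, hc⟩), rfl⟩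
      have h2 := Nat.card_le_card_of_surjective f hf
      rwa [Nat.card_prod, Nat.card_fin] at h2
    rw [hn] at h1
    exact Nat.le_of_mul_le_mul_right h1 Nat.card_pos
  have hVa : V ⊓ centralizer ({a} : Set G) = V ⊓ centralizer (A : Set G) := by
    apply le_antisymm
    · intro v hv
      obtain ⟨hv1, hv2⟩ := mem_inf.1 hv
      rw [mem_centralizer_singleton_iff] at hv2
      refine mem_inf.2 ⟨hv1, ?_⟩
      rw [mem_centralizer_iff]
      intro x hx
      obtain ⟨i, -, c, hc, rfl⟩ := hdec x hx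
      have h1 : Commute c v := (mem_centralizer_iff.1 (hk hc) v hv1).symm
      have h2 : Commute a v := hv2.symm
      exact ((h2.pow_left i).mul_left h1).eq
    · refine inf_le_inf_left _ ?_
      intro v hv
      rw [mem_centralizer_singleton_iff]
      exact (mem_centralizer_iff.1 hv a ha).symm
  have hchain : ∀ i ≤ k, 2 ^ i * Nat.card ↥(V ⊓ centralizer (A : Set G)) ≤
      Nat.card ↥(V ⊓ centralizer ({a ^ (2 ^ i)} : Set G)) := by
    intro i
    induction i with
    | zero =>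
      intro _
      rw [pow_zero, pow_one, one_mul, hVa]
    | succ i ih =>
      intro hi
      have h1 := ih (by omega)
      have h2 := card_chain (s := a ^ (2 ^ i)) (j := k - i) hV (pow_mem (hAV ha) _) (by
        rw [← pow_mul, ← pow_add]
        have : i + (k - i) = k := by omega
        rw [this]
        exact hkV) (fun h => hmin i (by omega)
          (mem_centralizer_of (pow_mem (hAQ ha) _) hQV hf h))
      rw [← pow_mul, ← pow_succ] at h2
      calc 2 ^ (i + 1) * Nat.card ↥(V ⊓ centralizer (A : Set G))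
          = 2 * (2 ^ i * Nat.card ↥(V ⊓ centralizer (A : Set G))) := by ring
        _ ≤ _ := (Nat.mul_le_mul_left 2 h1).trans h2
  have hVk : V ⊓ centralizer ({a ^ (2 ^ k)} : Set G) = V := by
    rw [inf_eq_left]
    intro v hv
    rw [mem_centralizer_singleton_iff]
    exact mem_centralizer_iff.1 hkV v hv
  have htot := hchain k le_rfl
  rw [hVk] at htot
  refine ⟨(Nat.mul_le_mul_right _ hnle).trans htot, ?_⟩
  intro heq
  have hk1 : k ≤ 1 := by
    by_contra hk2
    obtain ⟨m, rfl⟩ : ∃ m, k = m + 2 := ⟨k - 2, by omega⟩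
    refine no_transvection (a := a) (t := a ^ (2 ^ (m + 1))) hV (hAV ha) (hAQ ha) hQV hQ hf ha2 ?_
      (hmin _ (by omega)) ?_ ?_
    · rw [mem_zpowers_iff]
      refine ⟨((2 ^ m : ℕ) : ℤ), ?_⟩
      rw [zpow_natCast, ← pow_mul]
      congr 1
      ring
    · rw [← pow_mul, ← pow_succ]
      exact hspec
    · have h1 := hchain (m + 1) (by omega)
      rw [← heq]
      calc n * Nat.card ↥(V ⊓ centralizer (A : Set G))
          ≤ 2 ^ (m + 2) * Nat.card ↥(V ⊓ centralizer (A : Set G)) := Nat.mul_le_mul_right _ hnle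
        _ = 2 * (2 ^ (m + 1) * Nat.card ↥(V ⊓ centralizer (A : Set G))) := by ring
        _ ≤ _ := Nat.mul_le_mul_left 2 h1
  have ha2Q : a ^ 2 ∈ centralizer (Q : Set G) := by
    interval_cases k
    · simp only [pow_zero, pow_one] at hspec
      exact pow_mem hspec 2
    · simpa using hspec
  intro x hx
  obtain ⟨i, -, c, hc, rfl⟩ := hdec x hx
  have h1 : a ^ i * c = c * a ^ i := hab _ (pow_mem ha i) _ (mem_inf.1 hc).1
  have h2 : (a ^ i * c) ^ 2 = (a ^ 2) ^ i * c ^ 2 := by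
    rw [(show Commute (a ^ i) c from h1).mul_pow, ← pow_mul, ← pow_mul, mul_comm i 2]
  rw [h2]
  exact mul_mem (pow_mem ha2Q i) (pow_mem (mem_inf.1 hc).2 2)

end H37.AbOff3
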