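import Cfsg.Agent.Lib.H37.AbOff3

set_option autoImplicit false
set_option maxHeartbeats 1000000

/-! Abelian offenders: the bound. -/

namespace H37.AbOff4

open Subgroup H37.AbOff1 H37.AbOff2 H37.AbOff3
open scoped commutatorElement

universe u

variable {G : Type u} [Group G]

/-- An abelian `2`-group acting on an elementary abelian `2`-group together with a group of odd
order. -/
theorem key [Finite G] (n : ℕ) : ∀ (A Q V : Subgroup G),
    Nat.card A = n * Nat.card ↥(A ⊓ centralizer (Q : Set G)) → IsPGroup 2 A →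
    A ≤ centralizer (A : Set G) → Cfsg.IsElementaryAbelian 2 V →
    A ≤ normalizer (V : Set G) → A ≤ normalizer (Q : Set G) →
    Q ≤ normalizer (V : Set G) → (Nat.card Q).Coprime 2 →
    Q ⊓ centralizer (V : Set G) = ⊥ → A ⊓ centralizer (Q : Set G) ≤ centralizer (V : Set G) →
    n * Nat.card ↥(V ⊓ centralizer (A : Set G)) ≤ Nat.card V ∧
      (n * Nat.card ↥(V ⊓ centralizer (A : Set G)) = Nat.card V →
        ∀ a ∈ A, a ^ 2 ∈ centralizer (Q : Set G)) := by
  haveI : Fact (Nat.Prime 2) := ⟨Nat.prime_two⟩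
  induction n using Nat.strong_induction_on with
  | _ n ih =>
  intro A Q V hn hA hAc hV hAV hAQ hQV hQ hf hk
  have claim : ∀ a₀ ∈ A, a₀ ∉ centralizer (Q : Set G) →
      n * Nat.card ↥(V ⊓ centralizer (A : Set G)) ≤ Nat.card V ∧
      (n * Nat.card ↥(V ⊓ centralizer (A : Set G)) = Nat.card V →
        (∀ a ∈ A, a ^ 2 ∈ centralizer (Q : Set G)) ∨
        ∃ R : Subgroup G, a₀ ∉ centralizer (R : Set G) ∧ ∀ a ∈ A, a ^ 2 ∈ centralizer (R : Set G)) := by
    intro a₀ ha₀ ha₀Q
    by_cases hno : ∀ R : Subgroup G, R ≤ Q → A ≤ normalizer (R : Set G) → a₀ ∉ centralizer (R : Set G) →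
      A ⊓ centralizer (R : Set G) ≤ centralizer (Q : Set G)
    · obtain ⟨a, ha, hgen⟩ := exists_gen hA hAc hAQ hQ ha₀ ha₀Q hno
      obtain ⟨h1, h2⟩ := cyclic_case hn hA hAc hV hAV hAQ hQV hQ hf hk ha hgen
      exact ⟨h1, fun h => Or.inl (h2 h)⟩
    · push Not at hno
      obtain ⟨R, hRQ, hAR, ha₀R, hBQ⟩ := hno
      obtain ⟨B, hB⟩ : ∃ B, B = A ⊓ centralizer (R : Set G) := ⟨_, rfl⟩
      rw [← hB] at hBQ
      have hBA : B ≤ A := by rw [hB]; exact inf_le_left
      have hBR : B ≤ centralizer (R : Set G) := by rw [hB]; exact inf_le_right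
      have hCB : A ⊓ centralizer (Q : Set G) ≤ B := by
        rw [hB]
        exact inf_le_inf_left _ (centralizer_le hRQ)
      have hBCQ : B ⊓ centralizer (Q : Set G) = A ⊓ centralizer (Q : Set G) :=
        le_antisymm (inf_le_inf_right _ hBA) (le_inf hCB inf_le_right)
      obtain ⟨n₁, hn₁⟩ := card_dvd_of_le hCB
      obtain ⟨n₂, hn₂⟩ := card_dvd_of_le hBA
      have hcpos : 0 < Nat.card ↥(A ⊓ centralizer (Q : Set G)) := Nat.card_pos
      have hBpos : 0 < Nat.card B := Nat.card_pos
      have hnn : n = n₂ * n₁ := by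
        rw [hn₂, hn₁] at hn
        apply Nat.eq_of_mul_eq_mul_right hcpos
        rw [← hn]; ring
      have hn₁2 : 2 ≤ n₁ := by
        by_contra h
        have h0 : n₁ ≠ 0 := by
          rintro rfl
          rw [mul_zero] at hn₁
          omega
        have h1 : n₁ = 1 := by omega
        rw [h1, mul_one] at hn₁
        apply hBQ
        rw [← eq_of_le_of_card_ge hCB hn₁.le]
        exact inf_le_right
      have hn₂2 : 2 ≤ n₂ := by
        by_contra h
        have h0 : n₂ ≠ 0 := by
          rintro rfl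
          rw [mul_zero] at hn₂
          exact absurd hn₂ (Nat.card_pos).ne'
        have h1 : n₂ = 1 := by omega
        rw [h1, mul_one] at hn₂
        apply ha₀R
        apply hBR
        rw [eq_of_le_of_card_ge hBA hn₂.le]
        exact ha₀
      have hlt₁ : n₁ < n := by
        rw [hnn]
        calc n₁ < 2 * n₁ := by omega
          _ ≤ n₂ * n₁ := Nat.mul_le_mul_right _ hn₂2
      have hlt₂ : n₂ < n := by
        rw [hnn]
        calc n₂ < n₂ * 2 := by omega
          _ ≤ n₂ * n₁ := Nat.mul_le_mul_left _ hn₁2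
      -- first step
      obtain ⟨h1, h2⟩ := ih n₁ hlt₁ B Q V (by rw [hBCQ, hn₁, mul_comm]) (hA.to_le hBA)
        (hBA.trans (hAc.trans (centralizer_le hBA))) hV (hBA.trans hAV) (hBA.trans hAQ) hQV hQ hf
        (by rw [hBCQ]; exact hk)
      -- second step
      obtain ⟨N, hN⟩ : ∃ N, N = V ⊓ centralizer (B : Set G) := ⟨_, rfl⟩
      rw [← hN] at h1 h2
      have hNV : N ≤ V := by rw [hN]; exact inf_le_left
      have hBN : B ≤ centralizer (N : Set G) := by
        rw [le_centralizer_iff, hN]
        exact inf_le_right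
      have hAB : A ≤ normalizer (B : Set G) := by
        refine (hAc.trans (centralizer_le hBA)).trans (centralizer_le_normalizer _)
      have hAN : A ≤ normalizer (N : Set G) := by
        rw [hN]
        exact H13.Norm.le_normalizer_inf hAV (H13.Norm.le_normalizer_centralizer hAB)
      have hRB : R ≤ centralizer (B : Set G) := le_centralizer_iff.1 hBR
      have hRN : R ≤ normalizer (N : Set G) := by
        rw [hN]
        exact H13.Norm.le_normalizer_inf (hRQ.trans hQV) (hRB.trans le_normalizer)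
      have hRf : R ⊓ centralizer (N : Set G) = ⊥ := by
        have h3 := H1.Coprime2.pq_lemma 2 B (R ⊓ centralizer (N : Set G)) (hA.to_le hBA)
          (H13.Coprime.coprime_of_le (inf_le_left.trans hRQ) hQ)
          (hBR.trans (centralizer_le (SetLike.coe_subset_coe.2 inf_le_left))) _ V rfl (H13.ElemAb.isPGroup hV)
          (hBA.trans hAV) ((inf_le_left.trans hRQ).trans hQV) (by
            rw [← hN, le_centralizer_iff]
            exact inf_le_right)
        rw [eq_bot_iff, ← hf]
        exact le_inf (inf_le_left.trans hRQ) h3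
      obtain ⟨h3, h4⟩ := ih n₂ hlt₂ A R N (by rw [← hB, hn₂, mul_comm]) hA hAc
        (H13.ElemAb.of_le hV hNV) hAN hAR hRN (H13.Coprime.coprime_of_le hRQ hQ) hRf
        (by rw [← hB]; exact hBN)
      have hNA : N ⊓ centralizer (A : Set G) = V ⊓ centralizer (A : Set G) := by
        rw [hN]
        apply le_antisymm
        · exact le_inf (inf_le_left.trans inf_le_left) inf_le_right
        · exact le_inf (le_inf inf_le_left (inf_le_right.trans (centralizer_le hBA))) inf_le_right
      rw [hNA] at h3 h4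
      have h5 : n * Nat.card ↥(V ⊓ centralizer (A : Set G)) =
          n₁ * (n₂ * Nat.card ↥(V ⊓ centralizer (A : Set G))) := by rw [hnn]; ring
      refine ⟨?_, ?_⟩
      · rw [h5]
        exact (Nat.mul_le_mul_left _ h3).trans h1
      · intro heq
        right
        refine ⟨R, ha₀R, h4 ?_⟩
        apply le_antisymm h3
        rw [h5] at heq
        rw [← heq] at h1
        exact Nat.le_of_mul_le_mul_left h1 (by omega)
  by_cases htriv : A ≤ centralizer (Q : Set G)
  · have h1 : A ⊓ centralizer (Q : Set G) = A := inf_eq_left.2 htriv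
    rw [h1] at hn hk
    have hn1 : n = 1 := by
      have : 0 < Nat.card A := Nat.card_pos
      have h2 : 1 * Nat.card A = n * Nat.card A := by rw [one_mul]; exact hn
      exact (Nat.eq_of_mul_eq_mul_right this h2).symm
    have h2 : V ⊓ centralizer (A : Set G) = V := inf_eq_left.2 (le_centralizer_iff.1 hk)
    rw [h2, hn1, one_mul]
    exact ⟨le_rfl, fun _ a ha => pow_mem (htriv ha) 2⟩
  · obtain ⟨a₀, ha₀, ha₀Q⟩ := Set.not_subset.1 htriv
    refine ⟨(claim a₀ ha₀ ha₀Q).1, ?_⟩
    intro heq a ha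
    by_contra hcon
    rcases (claim (a ^ 2) (pow_mem ha 2) hcon).2 heq with h | ⟨R, h1, h2⟩
    · exact hcon (h a ha)
    · exact h1 (h2 a ha)

/-- faithful version -/
theorem main [Finite G] {A Q V : Subgroup G} (hA : IsPGroup 2 A)
    (hAc : A ≤ centralizer (A : Set G)) (hV : Cfsg.IsElementaryAbelian 2 V)
    (hAV : A ≤ normalizer (V : Set G)) (hAQ : A ≤ normalizer (Q : Set G))
    (hQV : Q ≤ normalizer (V : Set G)) (hQ : (Nat.card Q).Coprime 2)
    (hf : Q ⊓ centralizer (V : Set G) = ⊥) (hk : A ⊓ centralizer (Q : Set G) = ⊥) :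
    Nat.card A * Nat.card ↥(V ⊓ centralizer (A : Set G)) ≤ Nat.card V ∧
      (Nat.card A * Nat.card ↥(V ⊓ centralizer (A : Set G)) = Nat.card V → ∀ a ∈ A, a ^ 2 = 1) := by
  obtain ⟨h1, h2⟩ := key (Nat.card A) A Q V (by rw [hk, card_bot, mul_one]) hA hAc hV hAV hAQ hQV hQ hf
    (by rw [hk]; exact bot_le)
  refine ⟨h1, fun h a ha => ?_⟩
  have h3 : a ^ 2 ∈ A ⊓ centralizer (Q : Set G) := mem_inf.2 ⟨pow_mem ha 2, h2 h a ha⟩
  rwa [hk, mem_bot] at h3

end H37.AbOff4
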