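import Cfsg.Agent.Lib.H37.AbOff4
import Cfsg.Agent.Lib.H13.FFThom
import Cfsg.Agent.Lib.H13.FF9
import Cfsg.Agent.Lib.H51.ThompsonA
import Cfsg.Agent.Lib.H1.Solv

set_option autoImplicit false
set_option maxHeartbeats 1000000

/-! Abelian offenders: products, and a transfer-type lemma for fixed points. -/

namespace H37.AbOff5

open Subgroup
open scoped commutatorElement

universe u

variable {G : Type u} [Group G]

theorem card_conj_mul {n : ℕ} (g x : G) : g * x ^ n * g⁻¹ = (g * x * g⁻¹) ^ n := by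
  have := (MulAut.conj g).toMonoidHom.map_pow x n
  simpa only [MulEquiv.coe_toMonoidHom, MulAut.conj_apply] using this

/-- internal direct products -/
theorem prod_iso [Finite G] {ι : Type*} [Finite ι] (E : ι → Subgroup G) (H : Subgroup G)
    (hN : ∀ i, H ≤ normalizer (E i : Set G)) (hind : iSupIndep E) (hsup : ⨆ i, E i = H)
    {S : Type*} [Group S] (hiso : ∀ i, Nonempty (E i ≃* S)) (hH : H ≠ ⊥) :
    ∃ n : ℕ, 1 ≤ n ∧ Nonempty (H ≃* (Fin n → S)) := by
  classical
  haveI : Fintype ι := Fintype.ofFinite ι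
  have hle : ∀ i, E i ≤ H := fun i => by rw [← hsup]; exact le_iSup E i
  have hcomm : Pairwise fun i j : ι => ∀ x y : G, x ∈ E i → y ∈ E j → Commute x y := by
    intro i j hij x y hx hy
    have h1 : x * y * x⁻¹ ∈ E j := (mem_normalizer_iff.1 (hN j (hle i hx)) y).1 hy
    have h2 : y * x⁻¹ * y⁻¹ ∈ E i := (mem_normalizer_iff.1 (hN i (hle j hy)) x⁻¹).1 (inv_mem hx)
    have h3 : x * y * x⁻¹ * y⁻¹ ∈ E i ⊓ E j := by
      refine mem_inf.2 ⟨?_, mul_mem h1 (inv_mem hy)⟩
      have : x * y * x⁻¹ * y⁻¹ = x * (y * x⁻¹ * y⁻¹) := by group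
      rw [this]
      exact mul_mem hx h2
    have h4 : E i ⊓ E j = ⊥ := (hind.pairwiseDisjoint hij).eq_bot
    rw [h4, mem_bot, mul_inv_eq_one, mul_inv_eq_iff_eq_mul] at h3
    exact h3
  let f := Subgroup.noncommPiCoprod hcomm
  have hf : Function.Injective f := Subgroup.injective_noncommPiCoprod_of_iSupIndep hind
  have hr : f.range = H := by rw [Subgroup.noncommPiCoprod_range, hsup]
  have e1 : ((i : ι) → E i) ≃* H := (MonoidHom.ofInjective hf).trans (MulEquiv.subgroupCongr hr)
  have e2 : ((i : ι) → E i) ≃* (ι → S) := MulEquiv.piCongrRight fun i => (hiso i).some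
  have e3 : (ι → S) ≃* (Fin (Fintype.card ι) → S) :=
    MulEquiv.arrowCongr (Fintype.equivFin ι) (MulEquiv.refl S)
  refine ⟨Fintype.card ι, ?_, ⟨(e1.symm.trans e2).trans e3⟩⟩
  rw [Nat.one_le_iff_ne_zero]
  intro h0
  haveI : IsEmpty ι := Fintype.card_eq_zero_iff.1 h0
  apply hH
  rw [← hsup]
  simp

/-- fixed points of a Sylow subgroup: a transfer-type argument -/
theorem fixed_of_omega [Finite G] {p : ℕ} [hp : Fact p.Prime] (T : Sylow p G) (W : Subgroup G)
    [hWn : W.Normal] (hWc : ∀ a ∈ W, ∀ b ∈ W, a * b = b * a) (hWp : IsPGroup p W) (L : Subgroup G)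
    (h : ∀ v ∈ W, v ∈ centralizer ((T : Subgroup G) : Set G) → v ^ p = 1 → v ∈ centralizer (L : Set G))
    {w : G} (hw : w ∈ W) (hwT : w ∈ centralizer ((T : Subgroup G) : Set G)) :
    w ∈ centralizer (L : Set G) := by
  classical
  obtain ⟨M, hM⟩ : ∃ M, M = L ⊔ (T : Subgroup G) := ⟨_, rfl⟩
  letI : CommGroup W := { (inferInstance : Group W) with mul_comm := fun a b => Subtype.ext (hWc a a.2 b b.2) }
  letI : Fintype W := Fintype.ofFinite W
  letI act : MulDistribMulAction M W := MulDistribMulAction.compHom W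
    ((MulAut.conjNormal (H := W)).comp M.subtype)
  have hact : ∀ (g : M) (x : W), ((g • x : W) : G) = g * x * (g : G)⁻¹ := fun g x => rfl
  let w₀ : W := ⟨w, hw⟩
  let O : Finset W := Finset.univ.filter (fun x => x ∈ MulAction.orbit M w₀)
  have hO : ∀ x, x ∈ O ↔ x ∈ MulAction.orbit M w₀ := fun x => by simp [O]
  let π : W := ∏ x ∈ O, x
  have hπ : ∀ g : M, g • π = π := by
    intro g
    have h1 : g • π = ∏ x ∈ O, g • x := by
      exact _root_.map_prod (MulDistribMulAction.toMonoidHom W g) (fun x => x) O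
    rw [h1]
    refine Finset.prod_bij (fun x _ => g • x) ?_ ?_ ?_ ?_
    · intro x hx
      rw [hO] at hx ⊢
      exact MulAction.mem_orbit_of_mem_orbit g hx
    · intro x _ y _ hxy
      exact smul_left_cancel g hxy
    · intro y hy
      refine ⟨g⁻¹ • y, ?_, smul_inv_smul g y⟩
      rw [hO] at hy ⊢
      exact MulAction.mem_orbit_of_mem_orbit g⁻¹ hy
    · intro x _
      rfl
  have hcard : ¬ p ∣ O.card := by
    have h1 : O.card = (MulAction.stabilizer M w₀).index := by
      have h2 : Nat.card (MulAction.orbit M w₀) = (MulAction.stabilizer M w₀).index :=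
        Nat.card_congr (MulAction.orbitEquivQuotientStabilizer M w₀)
      rw [← h2, Nat.card_eq_fintype_card]
      exact (Fintype.card_of_subtype O hO).symm
    rw [h1]
    intro hd
    have h3 : (T : Subgroup G).subgroupOf M ≤ MulAction.stabilizer M w₀ := by
      intro t ht
      rw [MulAction.mem_stabilizer_iff]
      apply Subtype.ext
      rw [hact]
      have h4 : (t : G) * w = w * t := mem_centralizer_iff.1 hwT t ht
      change (t : G) * w * (t : G)⁻¹ = w
      rw [h4, mul_inv_cancel_right]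
    have h5 : p ∣ ((T : Subgroup G).subgroupOf M).index := hd.trans (index_dvd_of_le h3)
    have h6 : (T : Subgroup G).relIndex M ∣ (T : Subgroup G).index := relIndex_dvd_index_of_le (by rw [hM]; exact le_sup_right)
    exact T.not_dvd_index (h5.trans h6)
  -- the element `z`
  have hcentM : ∀ x : G, x ∈ centralizer (L : Set G) → x ∈ centralizer ((T : Subgroup G) : Set G) →
      x ∈ centralizer (M : Set G) := by
    intro x h1 h2
    rw [hM, H13.Norm.centralizer_sup]
    exact mem_inf.2 ⟨h1, h2⟩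
  have hLM : L ≤ M := by rw [hM]; exact le_sup_left
  have hTM : (T : Subgroup G) ≤ M := by rw [hM]; exact le_sup_right
  have hcop : ∀ (x : G), x ∈ W → x ^ O.card ∈ centralizer (L : Set G) → x ∈ centralizer (L : Set G) := by
    intro x hx hxc
    obtain ⟨k, hk⟩ := hWp ⟨x, hx⟩
    have hk' : x ^ p ^ k = 1 := congrArg Subtype.val hk
    have h1 : (orderOf x).Coprime O.card := by
      refine Nat.Coprime.coprime_dvd_left (orderOf_dvd_of_pow_eq_one hk') ?_
      exact Nat.Coprime.pow_left k ((Nat.Prime.coprime_iff_not_dvd hp.out).2 hcard)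
    obtain ⟨m, hm⟩ := exists_pow_eq_self_of_coprime h1.symm
    rw [← hm]
    exact pow_mem hxc m
  have hπM : (π : G) ∈ centralizer (M : Set G) := by
    rw [mem_centralizer_iff]
    intro g hg
    have h1 := congrArg Subtype.val (hπ ⟨g, hg⟩)
    rw [hact] at h1
    exact mul_inv_eq_iff_eq_mul.1 h1
  by_contra hcon
  let z : W := w₀ ^ O.card * π⁻¹
  have hzT : (z : G) ∈ centralizer ((T : Subgroup G) : Set G) := by
    have h1 : (z : G) = w ^ O.card * (π : G)⁻¹ := rfl
    rw [h1]
    exact mul_mem (pow_mem hwT _) (inv_mem (centralizer_le hTM hπM))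
  have hz1 : z ≠ 1 := by
    intro h1
    apply hcon
    apply hcop w hw
    have h2 : w₀ ^ O.card = π := mul_inv_eq_one.1 h1
    have h3 : w ^ O.card = (π : G) := congrArg Subtype.val h2
    rw [h3]
    exact centralizer_le hLM hπM
  obtain ⟨j, hj1, hj2⟩ : ∃ j : ℕ, (z ^ p ^ j) ^ p = 1 ∧ z ^ p ^ j ≠ 1 := by
    have hex : ∃ k, z ^ p ^ k = 1 := hWp z
    have hs := Nat.find_spec hex
    have hm := fun i => Nat.find_min (m := i) hex
    generalize Nat.find hex = N at hs hm
    match N, hs, hm with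
    | 0, hs, _ =>
      exfalso
      rw [pow_zero, pow_one] at hs
      exact hz1 hs
    | j + 1, hs, hm =>
      refine ⟨j, ?_, hm j (by omega)⟩
      rw [← pow_mul, ← pow_succ]
      exact hs
  have hzj : ((z ^ p ^ j : W) : G) ∈ centralizer (L : Set G) := by
    refine h _ (z ^ p ^ j).2 ?_ (congrArg Subtype.val hj1)
    exact pow_mem hzT (p ^ j)
  have hwj : w ^ p ^ j ∈ centralizer (L : Set G) := by
    apply hcop _ (pow_mem hw _)
    have h1 : (w₀ ^ p ^ j) ^ O.card = z ^ p ^ j * π ^ p ^ j := by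
      have h2 : w₀ ^ O.card = z * π := by simp [z]
      rw [← pow_mul, mul_comm, pow_mul, h2, mul_pow]
    have h3 : (w ^ p ^ j) ^ O.card = ((z ^ p ^ j : W) : G) * (π : G) ^ p ^ j := congrArg Subtype.val h1
    rw [h3]
    exact mul_mem hzj (pow_mem (centralizer_le hLM hπM) _)
  have hwM : w ^ p ^ j ∈ centralizer (M : Set G) := hcentM _ hwj (pow_mem hwT _)
  apply hj2
  have h1 : π ^ p ^ j = (w₀ ^ p ^ j) ^ O.card := by
    have h2 : π ^ p ^ j = ∏ x ∈ O, x ^ p ^ j := (Finset.prod_pow O (p ^ j) (fun x => x)).symm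
    rw [h2]
    apply Finset.prod_eq_pow_card
    intro x hx
    rw [hO] at hx
    obtain ⟨g, rfl⟩ := hx
    apply Subtype.ext
    change (g • w₀ : W) ^ p ^ j = w ^ p ^ j
    have h3 : ((g • w₀ : W) : G) = g * w * (g : G)⁻¹ := hact g w₀
    have h4 : (((g • w₀ : W) ^ p ^ j : W) : G) = (g * w * (g : G)⁻¹) ^ p ^ j := by
      rw [← h3]; rfl
    refine h4.trans ?_
    rw [← card_conj_mul, mem_centralizer_iff.1 hwM g g.2, mul_inv_cancel_right]
  have h2 : z ^ p ^ j = (w₀ ^ O.card) ^ p ^ j * (π ^ p ^ j)⁻¹ := by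
    change (w₀ ^ O.card * π⁻¹) ^ p ^ j = _
    rw [mul_pow, inv_pow]
  rw [h2, h1, ← pow_mul, ← pow_mul, mul_comm O.card (p ^ j), mul_inv_cancel]

end H37.AbOff5
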