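import Cfsg.Agent.Lib.H37.AbOff5
import Cfsg.Agent.Lib.H37.QuadCore
import Cfsg.Agent.S0617

set_option autoImplicit false
set_option maxHeartbeats 1000000

/-! Abelian offenders: the theorem. -/

namespace H37.AbOff6

open Subgroup H13.Hol H13.Hol2 H37.AbOff5
open scoped commutatorElement

universe u

/-! ### `SL(2,2)` -/

def mat (σ : Equiv.Perm (Fin 3)) : Matrix (Fin 2) (Fin 2) (ZMod 2) :=
  !![(if σ 0 = 0 then 1 else 0) + (if σ 1 = 0 then 1 else 0),
     (if σ 1 = 0 then 1 else 0) + (if σ 2 = 0 then 1 else 0);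
     (if σ 0 = 2 then 1 else 0) + (if σ 1 = 2 then 1 else 0),
     (if σ 1 = 2 then 1 else 0) + (if σ 2 = 2 then 1 else 0)]

theorem mat_det : ∀ σ, (mat σ).det = 1 := by decide

theorem mat_mul : ∀ σ τ, mat (σ * τ) = mat σ * mat τ := by decide

theorem mat_inj : ∀ σ τ, mat σ = mat τ → σ = τ := by decide

theorem mat_surj : ∀ a b c d : ZMod 2, a * d - b * c = 1 → ∃ σ, mat σ = !![a, b; c, d] := by decide

theorem sl_iso : Nonempty (Matrix.SpecialLinearGroup (Fin 2) (ZMod 2) ≃* Equiv.Perm (Fin 3)) := by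
  let f : Equiv.Perm (Fin 3) →* Matrix.SpecialLinearGroup (Fin 2) (ZMod 2) :=
    MonoidHom.mk' (fun σ => ⟨mat σ, mat_det σ⟩) (fun σ τ => Subtype.ext (mat_mul σ τ))
  have hf : Function.Bijective f := by
    constructor
    · intro σ τ h
      exact mat_inj σ τ (congrArg Subtype.val h)
    · rintro ⟨M, hM⟩
      rw [Matrix.det_fin_two] at hM
      obtain ⟨σ, hσ⟩ := mat_surj _ _ _ _ hM
      refine ⟨σ, Subtype.ext ?_⟩
      change mat σ = M
      rw [hσ]
      exact (Matrix.eta_fin_two M).symm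
  exact ⟨(MulEquiv.ofBijective f hf).symm⟩

/-! ### the setting -/

variable {X : Type u} [Group X] [Finite X]

/-- `O₂` of a subgroup of the image of a normal subgroup -/
theorem pCore_bar_normal {V K : Subgroup X} [hVn : V.Normal] [hKn : K.Normal]
    (h : Cfsg.pCore 2 (bar V (⊤ : Subgroup X)) = ⊥) : Cfsg.pCore 2 (bar V K) = ⊥ := by
  obtain ⟨P, hP⟩ : ∃ P, P = (Cfsg.pCore 2 (bar V K)).map (bar V K).subtype := ⟨_, rfl⟩
  have h1 : bar V (⊤ : Subgroup X) ≤ normalizer (P : Set (Γ V)) := by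
    rw [hP]
    refine (bar_normalizer ?_).trans (H13.Cores.normalizer_le_normalizer_map_pCore _)
    rw [normalizer_eq_top]
  have h2 : P ≤ bar V (⊤ : Subgroup X) := by
    rw [hP]
    exact (map_subtype_le _).trans (bar_mono le_top)
  have h3 : IsPGroup 2 P := by
    rw [hP]
    exact H13.Cores.isPGroup_map_subtype_pCore _
  have h4 := H13.Cores.le_map_pCore h2 h1 h3
  rw [h, Subgroup.map_bot, le_bot_iff, hP] at h4
  exact (Subgroup.map_eq_bot_iff_of_injective _ (bar V K).subtype_injective).1 h4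

/-- the image of an abelian subgroup of largest order is a best offender -/
theorem bo_of_maxAb {V : Subgroup X} [hVn : V.Normal] (hV : Cfsg.IsElementaryAbelian 2 V)
    {Q : Subgroup (Γ V)} (hff : H13.FF2.FF 2 (VV V) (bar V (⊤ : Subgroup X)) Q)
    {A P : Subgroup X} (hP : IsPGroup 2 P) (hVP : V ≤ P) (hA : H51.ThompsonA.MaxAb A P) :
    Cfsg.IsBestOffenderOn 2 (VV V) (bar V A) := by
  haveI : Fact (Nat.Prime 2) := ⟨Nat.prime_two⟩
  have hK : (⊤ : Subgroup X) ≤ normalizer (V : Set X) := by rw [normalizer_eq_top]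
  have hAN : A ≤ normalizer (V : Set X) := le_top.trans hK
  have hAab : A ≤ centralizer (A : Set X) := by
    intro a ha
    rw [mem_centralizer_iff]
    intro b hb
    exact hA.2.1 b hb a ha
  have hA2 : IsPGroup 2 (bar V A) := isPGroup_bar (hP.to_le hA.1)
  have hAc : bar V A ≤ centralizer (bar V A : Set (Γ V)) := by
    intro x hx
    rw [mem_centralizer_iff]
    intro y hy
    obtain ⟨a, ha, rfl⟩ := H13.FFThom.mem_bar_iff_thG.1 hx
    obtain ⟨b, hb, rfl⟩ := H13.FFThom.mem_bar_iff_thG.1 hy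
    rw [← map_mul, ← map_mul, hA.2.1 a ha b hb]
  have hQf : Q ⊓ centralizer (VV V : Set (Γ V)) = ⊥ := by
    rw [eq_bot_iff, ← hff.hf]; exact inf_le_inf_right _ hff.hQH
  have hbd : ∀ B : Subgroup (Γ V), B ≤ bar V A →
      Nat.card B * Nat.card ↥(VV V ⊓ centralizer (B : Set (Γ V))) ≤ Nat.card (VV V) ∧
      (Nat.card B * Nat.card ↥(VV V ⊓ centralizer (B : Set (Γ V))) = Nat.card (VV V) →
        ∀ a ∈ B, a ^ 2 = 1) := by
    intro B hB
    have hBH : B ≤ bar V (⊤ : Subgroup X) := hB.trans (bar_mono le_top)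
    refine H37.AbOff4.main (Q := Q) (hA2.to_le hB) ((hB.trans hAc).trans (centralizer_le hB)) hff.hV
      (hBH.trans hff.hHV) (hBH.trans hff.hHQ) (hff.hQH.trans hff.hHV) hff.hQ hQf ?_
    rw [eq_bot_iff, ← H13.Transport.inf_eq_bot_of_isPGroup_of_coprime (hA2.to_le hB) hff.hQ]
    refine le_inf inf_le_left ?_
    exact (inf_le_inf_right _ hBH).trans hff.hCQ
  -- the offender inequality
  have hoff : Nat.card (VV V) ≤ Nat.card (bar V A) *
      Nat.card ↥(VV V ⊓ centralizer (bar V A : Set (Γ V))) := by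
    rw [card_VV, card_fix hAN]
    obtain ⟨B, hB⟩ : ∃ B, B = A ⊓ centralizer (V : Set X) := ⟨_, rfl⟩
    have hBA : B ≤ A := by rw [hB]; exact inf_le_left
    have hBV : B ≤ centralizer (V : Set X) := by rw [hB]; exact inf_le_right
    have h1 : H51.ThompsonA.Ab (B ⊔ V) := by
      refine (hA.2.1.mono hBA).sup (fun a ha b hb => H13.ElemAb.comm hV ha hb) ?_
      intro a ha b hb
      exact (mem_centralizer_iff.1 (hBV ha) b hb).symm
    have h2 := hA.2.2 (B ⊔ V) (sup_le (hBA.trans hA.1) hVP) h1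
    have h3 := H13.Thompson.card_sup_mul_card_inf (A := B) (B := V) (hBA.trans hAN)
    have h4 : Nat.card ↥(B ⊓ V) ≤ Nat.card ↥(V ⊓ centralizer (A : Set X)) := by
      apply card_le_of_le
      exact le_inf inf_le_right ((inf_le_left.trans hBA).trans hAab)
    have h5 := card_bar (V := V) (A := A) hAN
    rw [← hB] at h5
    have h6 : Nat.card B * Nat.card V ≤ Nat.card B *
        (Nat.card (bar V A) * Nat.card ↥(V ⊓ centralizer (A : Set X))) := by
      rw [← h3, ← mul_assoc, ← h5]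
      exact Nat.mul_le_mul h2 h4
    exact Nat.le_of_mul_le_mul_left h6 Nat.card_pos
  obtain ⟨h1, h2⟩ := hbd (bar V A) le_rfl
  have h3 := h2 (le_antisymm h1 hoff)
  refine ⟨fun B hB => (hbd B hB).1.trans hoff, ?_, ?_⟩
  · rw [commutator_eq_bot_iff_le_centralizer.2 hAc]
    exact bot_le
  · intro a ha
    rw [h3 a ha]
    exact one_mem _

end H37.AbOff6
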