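import Cfsg.Agent.Lib.H37.AbOff6
import Cfsg.Agent.Lib.H13.SylowN

set_option autoImplicit false
set_option maxHeartbeats 1000000

/-! Abelian offenders: the theorem. -/

namespace H37.AbOff7

open Subgroup H13.Hol H13.Hol2 H37.AbOff5 H37.AbOff6 H51.ThompsonA
open scoped commutatorElement

universe u

variable {X : Type u} [Group X] [Finite X]

/-- the centre of `T` -/
theorem centralizer_eq (hC : centralizer (Cfsg.pCore 2 X : Set X) ≤ Cfsg.pCore 2 X) (T : Sylow 2 X) :
    (centralizer (((T : Subgroup X) ⊓ centralizer ((T : Subgroup X) : Set X) : Subgroup X) : Set X)).normalCore =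
      centralizer ((H13.Omega.omegaClosure 2 X : Subgroup X) : Set X) := by
  haveI : Fact (Nat.Prime 2) := ⟨Nat.prime_two⟩
  obtain ⟨Z, hZ⟩ : ∃ Z : Subgroup X, Z = (T : Subgroup X) ⊓ centralizer ((T : Subgroup X) : Set X) := ⟨_, rfl⟩
  rw [← hZ]
  haveI hVn : (H13.Omega.omegaClosure 2 X : Subgroup X).Normal := H13.Omega.omegaClosure_normal
  apply le_antisymm
  · rw [le_centralizer_iff]
    refine iSup_le ?_
    intro S
    obtain ⟨g, hg⟩ := MulAction.exists_smul_eq X T S
    intro v hv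
    have hT : H13.Omega.omegaZ 2 (T : Subgroup X) ≤
        centralizer (((centralizer (Z : Set X)).normalCore : Subgroup X) : Set X) := by
      rw [le_centralizer_iff]
      refine (normalCore_le _).trans (centralizer_le ?_)
      rw [hZ]
      exact H13.Omega.omegaOne_le _
    have h1 : g⁻¹ * v * g ∈ H13.Omega.omegaZ 2 (T : Subgroup X) := by
      have h2 : (H13.Omega.omegaZ 2 (T : Subgroup X)).map (MulAut.conj g).toMonoidHom =
          H13.Omega.omegaZ 2 (S : Subgroup X) := by
        rw [H13.Omega.map_omegaZ_equiv, ← hg]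
        rfl
      have hv' : v ∈ H13.Omega.omegaZ 2 (S : Subgroup X) := hv
      rw [← h2] at hv'
      obtain ⟨y, hy, rfl⟩ := hv'
      have h3 : g⁻¹ * ((MulAut.conj g).toMonoidHom y) * g = y := by
        change g⁻¹ * (g * y * g⁻¹) * g = y
        group
      rw [h3]
      exact hy
    have h4 := hT h1
    have h5 : (centralizer (((centralizer (Z : Set X)).normalCore : Subgroup X) : Set X)).Normal := inferInstance
    have h6 := h5.conj_mem _ h4 g
    have h7 : g * (g⁻¹ * v * g) * g⁻¹ = v := by group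
    rwa [h7] at h6
  · haveI hn : (centralizer ((H13.Omega.omegaClosure 2 X : Subgroup X) : Set X)).Normal := inferInstance
    rw [normal_le_normalCore, le_centralizer_iff]
    intro z hz
    obtain ⟨W, hW⟩ : ∃ W, W = Cfsg.pCore 2 X ⊓ centralizer (Cfsg.pCore 2 X : Set X) := ⟨_, rfl⟩
    haveI hWn : W.Normal := by
      rw [hW]
      haveI : (Cfsg.pCore 2 X).Normal := inferInstance
      infer_instance
    have hz' : z ∈ (T : Subgroup X) ∧ z ∈ centralizer ((T : Subgroup X) : Set X) := by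
      rw [hZ] at hz
      exact mem_inf.1 hz
    have hPT := H13.Cores.pCore_le_sylow (p := 2) T
    have hzc : z ∈ centralizer (Cfsg.pCore 2 X : Set X) := centralizer_le hPT hz'.2
    refine fixed_of_omega T W ?_ ?_ _ ?_ (w := z) ?_ hz'.2
    · intro a ha b hb
      rw [hW] at ha hb
      exact mem_centralizer_iff.1 (mem_inf.1 hb).2 a (mem_inf.1 ha).1
    · rw [hW]
      exact H13.Cores.isPGroup_pCore.to_le inf_le_left
    · intro v hv hvT hv2
      rw [hW] at hv
      have h1 : v ∈ H13.Omega.omegaZ 2 (T : Subgroup X) :=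
        H13.Omega.mem_omegaOne_of (mem_inf.2 ⟨hPT (mem_inf.1 hv).1, hvT⟩) hv2
      have h2 := H13.Omega.omegaZ_le_omegaClosure T h1
      exact (le_centralizer_iff.1 le_rfl) h2
    · rw [hW]
      exact mem_inf.2 ⟨hC hzc, hzc⟩

/-- Frattini -/
theorem frattini (T : Sylow 2 X) :
    normalClosure (Cfsg.thompsonSubgroupAOf (T : Subgroup X) : Set X) ⊔
      normalizer (Cfsg.thompsonSubgroupAOf (T : Subgroup X) : Set X) = ⊤ := by
  haveI : Fact (Nat.Prime 2) := ⟨Nat.prime_two⟩
  rw [thompsonSubgroupAOf_eq]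
  obtain ⟨Y, hY⟩ : ∃ Y, Y = normalClosure (J (T : Subgroup X) : Set X) := ⟨_, rfl⟩
  haveI hYn : Y.Normal := by rw [hY]; infer_instance
  rw [← hY]
  have hJY : J (T : Subgroup X) ≤ Y := by rw [hY]; exact le_normalClosure
  have h1 : J ((T : Subgroup X) ⊓ Y) = J (T : Subgroup X) := J_eq_of_le (le_inf (J_le _) hJY) inf_le_left
  rw [eq_top_iff]
  have h2 : Y ⊔ normalizer (((T : Subgroup X) ⊓ Y : Subgroup X) : Set X) = ⊤ := by
    rw [sup_comm]
    exact H13.SylowN.frattini T Y
  rw [← h2]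
  refine sup_le_sup_left ?_ _
  rw [← h1]
  exact normalizer_le_normalizer_J _

/-- generation by best offenders -/
theorem bar_eq_iSup {V Y : Subgroup X} [hVn : V.Normal] (hV : Cfsg.IsElementaryAbelian 2 V)
    {Q : Subgroup (Γ V)} (hff : H13.FF2.FF 2 (VV V) (bar V (⊤ : Subgroup X)) Q)
    (hVP : V ≤ Cfsg.pCore 2 X) (T : Sylow 2 X) (hY : Y = normalClosure (J (T : Subgroup X) : Set X)) :
    bar V Y = ⨆ A : {A : Subgroup (Γ V) // A ≤ bar V Y ∧ Cfsg.IsBestOffenderOn 2 (VV V) A},
      (A : Subgroup (Γ V)) := by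
  haveI : Fact (Nat.Prime 2) := ⟨Nat.prime_two⟩
  haveI hYn : Y.Normal := by rw [hY]; infer_instance
  apply le_antisymm
  · obtain ⟨S, hS⟩ : ∃ S, S = ⨆ A : {A : Subgroup (Γ V) // A ≤ bar V Y ∧
        Cfsg.IsBestOffenderOn 2 (VV V) A}, (A : Subgroup (Γ V)) := ⟨_, rfl⟩
    rw [← hS]
    have hJ : ∀ P : Sylow 2 X, J (P : Subgroup X) ≤ Y := by
      intro P
      obtain ⟨g, hg⟩ := MulAction.exists_smul_eq X T P
      have h1 : J (P : Subgroup X) = (J (T : Subgroup X)).map (MulAut.conj g).toMonoidHom := by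
        rw [map_conj_J, ← hg]
        rfl
      rw [h1]
      rintro _ ⟨x, hx, rfl⟩
      have h2 : x ∈ Y := by
        rw [hY]
        exact subset_normalClosure hx
      exact hYn.conj_mem x h2 g
    have hJS : ∀ P : Sylow 2 X, J (P : Subgroup X) ≤ S.comap (H13.FFThom.thG V) := by
      intro P
      refine sSup_le ?_
      intro A hA a ha
      have hA' : MaxAb A (P : Subgroup X) := hA
      have h1 := bo_of_maxAb hV hff P.2 (hVP.trans (H13.Cores.pCore_le_sylow P)) hA'
      have h2 : bar V A ≤ S := by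
        rw [hS]
        exact le_iSup (fun A : {A : Subgroup (Γ V) // A ≤ bar V Y ∧
          Cfsg.IsBestOffenderOn 2 (VV V) A} => (A : Subgroup (Γ V)))
          ⟨bar V A, bar_mono (hA'.le_J.trans (hJ P)), h1⟩
      exact h2 (H13.FFThom.mem_bar_iff_thG.2 ⟨a, ha, rfl⟩)
    intro y hy
    obtain ⟨x, hx, rfl⟩ := H13.FFThom.mem_bar_iff_thG.1 hy
    have h1 : Y ≤ S.comap (H13.FFThom.thG V) := by
      rw [hY, normalClosure, closure_le]
      intro c hc
      obtain ⟨j, hj, hjc⟩ := Group.mem_conjugatesOfSet_iff.1 hc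
      obtain ⟨g, hg⟩ := isConj_iff.1 hjc
      have h2 : c ∈ J ((g • T : Sylow 2 X) : Subgroup X) := by
        have h3 : J ((g • T : Sylow 2 X) : Subgroup X) =
            (J (T : Subgroup X)).map (MulAut.conj g).toMonoidHom := by
          rw [map_conj_J]
          rfl
        rw [h3]
        exact ⟨j, hj, hg⟩
      exact hJS _ h2
    exact h1 hx
  · exact iSup_le fun A => A.2.1

/-- the structure of the group generated by the abelian subgroups of largest order -/
theorem structure_thm (hs : Group.IsSolvable X) (hF : Cfsg.fittingSubgroup X = Cfsg.pCore 2 X) (T : Sylow 2 X)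
    {Y : Subgroup X} (hY : Y = normalClosure (Cfsg.thompsonSubgroupAOf (T : Subgroup X) : Set X))
    {C : Subgroup X} [hCn : C.Normal]
    (hC : C = centralizer ((H13.Omega.omegaClosure 2 X : Subgroup X) : Set X)) :
    Y ≤ C ∨ ∃ n : ℕ, 1 ≤ n ∧ Nonempty (Y ⧸ C.subgroupOf Y ≃* (Fin n → Equiv.Perm (Fin 3))) := by
  haveI : Fact (Nat.Prime 2) := ⟨Nat.prime_two⟩
  rw [thompsonSubgroupAOf_eq] at hY
  haveI hYn : Y.Normal := by rw [hY]; infer_instance
  have hcen : centralizer (Cfsg.pCore 2 X : Set X) ≤ Cfsg.pCore 2 X := by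
    rw [← hF]
    exact H1.Solv.centralizer_fitting_le hs
  obtain ⟨V, hVdef⟩ : ∃ V : Subgroup X, V = H13.Omega.omegaClosure 2 X := ⟨_, rfl⟩
  haveI hVn : V.Normal := by rw [hVdef]; exact H13.Omega.omegaClosure_normal
  rw [← hVdef] at hC
  have hV : Cfsg.IsElementaryAbelian 2 V := by
    rw [hVdef]
    exact H13.Omega.isElementaryAbelian_omegaClosure hcen
  have hVP : V ≤ Cfsg.pCore 2 X := by
    rw [hVdef]
    refine iSup_le fun S => ?_
    refine (H13.Omega.omegaZ_le_centralizer_pCore S).trans hcen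
  have hcore : Cfsg.pCore 2 (X ⧸ centralizer (V : Set X)) = ⊥ := by
    have h1 := H13.FFThom.pCore_omegaClosure (p := 2) (G := X)
    subst hVdef
    exact h1
  have hK : (⊤ : Subgroup X) ≤ normalizer (V : Set X) := by rw [normalizer_eq_top]
  have hsol : Cfsg.IsPSolvable 2 X := H37.QuadCore.isPSolvable_of_isSolvable 2 _ X hs rfl
  have hO' := H13.FFThom.pCore_bar_top hcore
  have hff := ff_bar hV hK (H37.PSolv.subgroup hsol ⊤) hO'
  have hYK : Y ≤ normalizer (V : Set X) := le_top.trans hK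
  by_cases hbot : bar V Y = ⊥
  · left
    intro y hy
    have h1 : H13.FFThom.thG V y ∈ bar V Y := H13.FFThom.mem_bar_iff_thG.2 ⟨y, hy, rfl⟩
    rw [hbot, mem_bot] at h1
    rw [hC, ← H13.FFThom.thG_ker]
    exact h1
  · right
    have hffY := ff_bar hV hYK (H37.PSolv.subgroup hsol Y) (pCore_bar_normal hO')
    have hS1 : centralizer (Cfsg.pPrimeCore 2 ↥(bar V Y) : Set ↥(bar V Y)) ≤
        Cfsg.pPrimeCore 2 ↥(bar V Y) :=
      H66.PRed.centralizer_pPrimeCore_le (isPSolvable_bar hYK (H37.PSolv.subgroup hsol Y))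
        (pCore_bar_normal hO')
    have hmain := Cfsg.Agent.S0617.result (VV V) (bar V Y) hffY.hV hffY.hHV hffY.hf hS1
      (bar_eq_iSup hV hff hVP T hY) hbot
    obtain ⟨-, h1, h2, h3, -, -⟩ := hmain
    obtain ⟨n, hn, ⟨e⟩⟩ := prod_iso _ (bar V Y) (fun E => (h1 E).1) h2 h3
      (fun E => ⟨(h1 E).2.1.some.trans sl_iso.some⟩) hbot
    refine ⟨n, hn, ⟨?_⟩⟩
    have hker : (H13.FFThom.fK hYK).ker = C.subgroupOf Y := by
      ext y
      rw [MonoidHom.mem_ker, H13.FFThom.fK_eq_one, mem_subgroupOf, hC]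
    have e1 : Y ⧸ C.subgroupOf Y ≃* bar V Y :=
      (QuotientGroup.quotientMulEquivOfEq hker.symm).trans
        (QuotientGroup.quotientKerEquivOfSurjective _ (H13.FFThom.fK_surjective hYK))
    exact e1.trans e

end H37.AbOff7
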