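import Cfsg.Agent.Lib.H37.PSLab
import Cfsg.Agent.Lib.H58.AbSyl
import Cfsg.Agent.Lib.H5.ZStar
import Cfsg.Agent.Lib.H1.Cores
import Cfsg.Agent.Lib.H13.Norm

/-!
# Maximality of the centraliser of an involution: local lemmas
-/

set_option autoImplicit false
set_option maxHeartbeats 1000000

namespace H37.CMax1

open Subgroup H37.PSLab
open scoped commutatorElement

theorem eq_one_of_odd {G : Type*} [Group G] {x : G} (ho : Odd (orderOf x)) (h : x * x = 1) : x = 1 := by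
  have h1 : orderOf x ∣ 2 := orderOf_dvd_of_pow_eq_one (by rw [sq]; exact h)
  rcases (Nat.dvd_prime Nat.prime_two).1 h1 with h5 | h5
  · exact orderOf_eq_one_iff.1 h5
  · rw [h5] at ho; exact absurd ho (by decide)

theorem exists_sq {G : Type*} [Group G] {x : G} (ho : Odd (orderOf x)) : ∃ k : ℕ, (x ^ k) * (x ^ k) = x := by
  obtain ⟨k, hk⟩ := ho
  refine ⟨k + 1, ?_⟩
  have h1 : x ^ (2 * k + 1) = 1 := by rw [← hk, pow_orderOf_eq_one]
  rw [← pow_add, show k + 1 + (k + 1) = (2 * k + 1) + 1 by ring, pow_succ, h1, one_mul]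

theorem orderOf_odd_of_mem {G : Type*} [Group G] {X : Subgroup G} (hX : Odd (Nat.card X)) {x : G}
    (hx : x ∈ X) : Odd (orderOf x) := by
  have h3 : orderOf x ∣ Nat.card X := by
    have := orderOf_dvd_natCard (⟨x, hx⟩ : X)
    rwa [Subgroup.orderOf_mk] at this
  exact Odd.of_dvd_nat hX h3

/-- Glauberman's theorem, local form: an isolated involution `u` of `P` commutes with a normal subgroup
having trivial odd core. -/
theorem lemA' {X : Type*} [Group X] [Finite X] (N : Subgroup X) [hN : N.Normal] (P : Sylow 2 X)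
    (hP : IsMulCommutative (P : Subgroup X)) (hcomm : _root_.commutator X ≤ N)
    (hodd : ∀ K : Subgroup X, K.Normal → K ≤ N → Odd (Nat.card K) → K = ⊥)
    (hcen : ∀ x : X, (∀ n ∈ N, x * n = n * x) → x = 1) : (P : Subgroup X) ≤ N := by
  have hp : Fact (Nat.Prime 2) := ⟨Nat.prime_two⟩
  set NP := normalizer ((P : Subgroup X) : Set X) with hNP
  obtain ⟨hd1, hd2⟩ := H2.AbSylow.abelian_sylow_decomp P hP
  have hle : ⁅(P : Subgroup X), NP⁆ ≤ N := by
    refine le_trans ?_ hcomm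
    rw [_root_.commutator_def]
    exact Subgroup.commutator_mono le_top le_top
  have hbot : (P : Subgroup X) ⊓ centralizer (NP : Set X) = ⊥ := by
    by_contra hne
    obtain ⟨w, hw, hw1⟩ : ∃ w ∈ (P : Subgroup X) ⊓ centralizer (NP : Set X), w ≠ 1 := by
      by_contra h
      push Not at h
      exact hne ((Subgroup.eq_bot_iff_forall _).2 h)
    -- an involution
    obtain ⟨u, hu, hu2⟩ : ∃ u ∈ (P : Subgroup X) ⊓ centralizer (NP : Set X), orderOf u = 2 := by
      obtain ⟨k, hk⟩ := P.isPGroup' ⟨w, hw.1⟩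
      have hk' : w ^ 2 ^ k = 1 := congrArg Subtype.val hk
      obtain ⟨j, -, hj⟩ := (Nat.dvd_prime_pow Nat.prime_two).1 (orderOf_dvd_of_pow_eq_one hk')
      have hj0 : j ≠ 0 := by
        rintro rfl
        rw [pow_zero, orderOf_eq_one_iff] at hj
        exact hw1 hj
      obtain ⟨i, rfl⟩ := Nat.exists_eq_succ_of_ne_zero hj0
      refine ⟨w ^ 2 ^ i, Subgroup.pow_mem _ hw _, ?_⟩
      apply orderOf_eq_prime
      · rw [← pow_mul, ← pow_succ, ← hj, pow_orderOf_eq_one]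
      · intro h
        have h1 := orderOf_dvd_of_pow_eq_one h
        rw [hj, Nat.pow_dvd_pow_iff_le_right (by norm_num)] at h1
        omega
    have hiso : ∀ g : X, g * u * g⁻¹ ∈ P → g * u * g⁻¹ = u := by
      intro g hg
      obtain ⟨h, hh, hhe⟩ := H2.Control.normalizer_control_of_abelian P hP u hu.1 g hg
      rw [← hhe]
      have h1 := mem_centralizer_iff.1 hu.2 h hh
      rw [h1, mul_inv_cancel_right]
    have hz := H5.ZStar.sylow_form P u hu2 hiso
    have hK : Cfsg.pPrimeCore 2 X ⊓ N = ⊥ := by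
      apply hodd _ inferInstance inf_le_right
      have h1 := H1.Cores.coprime_card_pPrimeCore (G := X) 2
      have h3 : Odd (Nat.card (Cfsg.pPrimeCore 2 X)) := by
        rwa [Nat.coprime_comm, Nat.coprime_two_left] at h1
      exact Odd.of_dvd_nat h3 (Subgroup.card_dvd_of_le inf_le_left)
    have hu1 : u = 1 := by
      apply hcen
      intro n hn
      have h1 : u * n * u⁻¹ * n⁻¹ ∈ Cfsg.pPrimeCore 2 X ⊓ N :=
        ⟨hz n, N.mul_mem (hN.conj_mem n hn u) (N.inv_mem hn)⟩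
      rw [hK, Subgroup.mem_bot, mul_inv_eq_one, mul_inv_eq_iff_eq_mul] at h1
      exact h1
    rw [hu1, orderOf_one] at hu2
    omega
  rw [← hd2, ← hNP, hbot, bot_sup_eq]
  exact hle

theorem lemA {G : Type*} [Group G] [Finite G] (E₀ V : Subgroup G)
    (hVn : ∀ v ∈ V, ∀ x ∈ E₀, v * x * v⁻¹ ∈ E₀) (hVc : ∀ a ∈ V, ∀ b ∈ V, a * b = b * a)
    (hVp : IsPGroup 2 V) (hmax : ∀ Q : Subgroup G, Q ≤ E₀ ⊔ V → IsPGroup 2 Q → V ≤ Q → Q ≤ V)
    (hodd : ∀ K : Subgroup E₀, K.Normal → Odd (Nat.card K) → K = ⊥)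
    (hcen : ∀ x ∈ E₀ ⊔ V, (∀ e ∈ E₀, x * e = e * x) → x = 1) : V ≤ E₀ := by
  have hVN : V ≤ normalizer (E₀ : Set G) := by
    intro v hv
    rw [mem_normalizer_iff]
    intro x
    refine ⟨hVn v hv x, fun h => ?_⟩
    have := hVn v⁻¹ (V.inv_mem hv) _ h
    rw [inv_inv] at this
    convert this using 1
    group
  have hXN : E₀ ⊔ V ≤ normalizer (E₀ : Set G) := sup_le le_normalizer hVN
  have hN : (E₀.subgroupOf (E₀ ⊔ V)).Normal := ⟨fun n hn g => (mem_normalizer_iff.1 (hXN g.2) n.1).1 hn⟩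
  let P : Sylow 2 (↥(E₀ ⊔ V)) :=
    { toSubgroup := V.subgroupOf (E₀ ⊔ V)
      isPGroup' := hVp.comap_of_injective _ (Subgroup.subtype_injective _)
      is_maximal' := by
        intro Q hQ hle
        apply le_antisymm _ hle
        intro q hq
        rw [mem_subgroupOf]
        apply hmax (Q.map (E₀ ⊔ V).subtype) (Subgroup.map_subtype_le _) (hQ.map _)
        · intro v hv
          exact ⟨⟨v, le_sup_right (a := E₀) hv⟩, hle (mem_subgroupOf.2 hv), rfl⟩
        · exact ⟨q, hq, rfl⟩ }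
  have hP : (P : Subgroup ↥(E₀ ⊔ V)) = V.subgroupOf (E₀ ⊔ V) := rfl
  have h1 := lemA' (E₀.subgroupOf (E₀ ⊔ V)) P ⟨⟨by
      rintro ⟨⟨a, ha⟩, ha'⟩ ⟨⟨b, hb⟩, hb'⟩
      apply Subtype.ext
      apply Subtype.ext
      exact hVc a ha' b hb'⟩⟩ (by
      rw [_root_.commutator_def, Subgroup.commutator_le]
      have hrep : ∀ x : ↥(E₀ ⊔ V), ∃ v : ↥(E₀ ⊔ V), (v : G) ∈ V ∧
          (QuotientGroup.mk' (E₀.subgroupOf (E₀ ⊔ V))) x = (QuotientGroup.mk' (E₀.subgroupOf (E₀ ⊔ V))) v := by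
        rintro ⟨x, hx⟩
        obtain ⟨e, he, v, hv, rfl⟩ := (H13.Norm.mem_sup_of_le_normalizer' hVN).1 hx
        refine ⟨⟨v, le_sup_right (a := E₀) hv⟩, hv, ?_⟩
        have h2 : (⟨e * v, hx⟩ : ↥(E₀ ⊔ V)) = ⟨e, le_sup_left (b := V) he⟩ * ⟨v, le_sup_right (a := E₀) hv⟩ := rfl
        rw [h2, map_mul]
        have h3 : (QuotientGroup.mk' (E₀.subgroupOf (E₀ ⊔ V))) ⟨e, le_sup_left (b := V) he⟩ = 1 := by
          rw [← MonoidHom.mem_ker, QuotientGroup.ker_mk']
          exact mem_subgroupOf.2 he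
        rw [h3, one_mul]
      intro x _ y _
      obtain ⟨v, hv, hxv⟩ := hrep x
      obtain ⟨w, hw, hyw⟩ := hrep y
      have h2 : ⁅v, w⁆ = 1 := by
        rw [commutatorElement_eq_one_iff_mul_comm]
        exact Subtype.ext (hVc v hv w hw)
      have h3 : (QuotientGroup.mk' (E₀.subgroupOf (E₀ ⊔ V))) ⁅x, y⁆ = 1 := by
        rw [map_commutatorElement, hxv, hyw, ← map_commutatorElement, h2, map_one]
      rwa [← MonoidHom.mem_ker, QuotientGroup.ker_mk'] at h3) ?_ ?_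
  · intro v hv
    have := h1 (show (⟨v, le_sup_right (a := E₀) hv⟩ : ↥(E₀ ⊔ V)) ∈ (P : Subgroup ↥(E₀ ⊔ V)) from mem_subgroupOf.2 hv)
    exact mem_subgroupOf.1 this
  · intro K hK hKN hKo
    have hKE : (K.map (E₀ ⊔ V).subtype) ≤ E₀ := by
      rintro _ ⟨k, hk, rfl⟩
      exact mem_subgroupOf.1 (hKN hk)
    have h2 := hodd ((K.map (E₀ ⊔ V).subtype).subgroupOf E₀) ⟨by
      rintro n hn g
      obtain ⟨k, hk, hkn⟩ := mem_subgroupOf.1 hn
      rw [mem_subgroupOf]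
      refine ⟨⟨g, le_sup_left (b := V) g.2⟩ * k * (⟨g, le_sup_left (b := V) g.2⟩)⁻¹, hK.conj_mem k hk _, ?_⟩
      show (g : G) * ((E₀ ⊔ V).subtype k) * (g : G)⁻¹ = _
      rw [hkn]
      rfl⟩ (by
      rw [Nat.card_congr (Subgroup.subgroupOfEquivOfLe hKE).toEquiv,
        Subgroup.card_map_of_injective (Subgroup.subtype_injective _)]
      exact hKo)
    rw [Subgroup.subgroupOf_eq_bot, disjoint_iff, inf_eq_left.2 hKE] at h2
    exact (Subgroup.map_eq_bot_iff_of_injective K (Subgroup.subtype_injective _)).1 h2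
  · intro x hx
    apply Subtype.ext
    apply hcen x x.2
    intro e he
    exact congrArg Subtype.val (hx ⟨e, le_sup_left (b := V) he⟩ (mem_subgroupOf.2 he))

/-- the final contradiction -/
theorem lemC {G : Type*} [Group G] [Finite G] (t : G) (htt : t * t = 1) (E₀ : Subgroup G)
    (hf : Fct E₀) (hcomm : ∀ e ∈ E₀, e * t = t * e)
    (hnor : ∀ c : G, c * t = t * c → ∀ e ∈ E₀, c * e * c⁻¹ ∈ E₀)
    (s : G) (hss : s * s = 1) (hst : s * t = t * s) (s' : G) (hs' : s' = s ∨ s' = s * t) (hs'E : s' ∈ E₀)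
    (hs'1 : s' ≠ 1) (a : G) (ha : a ∈ E₀) (ha1 : a ≠ 1) (haa : a * a = 1) (has : a * s' = s' * a)
    (hane : a ≠ s')
    (X : Subgroup G) (hXo : Odd (Nat.card X)) (hXc : ∀ x ∈ X, ∀ y ∈ X, x * y = y * x)
    (hinv : ∀ x ∈ X, s * x * s⁻¹ = x⁻¹) (hn : ∀ c : G, c * s = s * c → ∀ x ∈ X, c * x * c⁻¹ ∈ X)
    (y₀ : G) (hy₀ : y₀ ∈ X) (hy₀t : y₀ * t = t * y₀) : y₀ = 1 := by
  by_contra hy₀1
  have hs's' : s' * s' = 1 := by
    rcases hs' with rfl | rfl
    · exact hss
    · calc s * t * (s * t) = s * t * (t * s) := by rw [hst]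
        _ = s * (t * t) * s := by group
        _ = 1 := by rw [htt, mul_one, hss]
  -- elements of `Y`
  have hYinv : ∀ y ∈ X, y * t = t * y → s' * y * s'⁻¹ = y⁻¹ := by
    intro y hy hyt
    rcases hs' with rfl | rfl
    · exact hinv y hy
    · calc s * t * y * (s * t)⁻¹ = s * (t * y * t⁻¹) * s⁻¹ := by group
        _ = s * y * s⁻¹ := by rw [← hyt, mul_inv_cancel_right]
        _ = y⁻¹ := hinv y hy
  have hYE : ∀ y ∈ X, y * t = t * y → y ∈ E₀ := by
    intro y hy hyt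
    obtain ⟨k, hk⟩ := exists_sq (orderOf_odd_of_mem hXo hy)
    set z := y ^ k with hz
    have hzX : z ∈ X := X.pow_mem hy k
    have hzt : z * t = t * z := (Commute.pow_left (show Commute y t from hyt) k)
    have h1 := hYinv z hzX hzt
    have h2 : z * s' * z⁻¹ * s'⁻¹ = y := by
      have h3 : s' * z⁻¹ * s'⁻¹ = z := by
        have := congrArg (fun w => w⁻¹) h1
        simp only [mul_inv_rev, inv_inv] at this
        rw [← mul_assoc] at this
        exact this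
      calc z * s' * z⁻¹ * s'⁻¹ = z * (s' * z⁻¹ * s'⁻¹) := by group
        _ = y := by rw [h3, hk]
    rw [← h2]
    exact E₀.mul_mem (hnor z hzt s' hs'E) (E₀.inv_mem hs'E)
  -- `C_{E₀}(s')` normalises `Y`
  have hcs : ∀ c ∈ E₀, c * s' = s' * c → c * s = s * c := by
    intro c hc hcs'
    rcases hs' with rfl | rfl
    · exact hcs'
    · have h1 : s * t * t = s := by rw [mul_assoc, htt, mul_one]
      calc c * s = c * (s * t * t) := by rw [h1]
        _ = c * (s * t) * t := by group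
        _ = s * t * c * t := by rw [hcs']
        _ = s * t * (c * t) := by group
        _ = s * t * (t * c) := by rw [hcomm c hc]
        _ = s * (t * t) * c := by group
        _ = s * c := by rw [htt, mul_one]
  have hYn : ∀ c ∈ E₀, c * s' = s' * c → ∀ y ∈ X, y * t = t * y →
      c * y * c⁻¹ ∈ X ∧ (c * y * c⁻¹) * t = t * (c * y * c⁻¹) := by
    intro c hc hcs' y hy hyt
    refine ⟨hn c (hcs c hc hcs') y hy, ?_⟩
    have hct := hcomm c hc
    have hct' : c⁻¹ * t = t * c⁻¹ := hcomm c⁻¹ (E₀.inv_mem hc)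
    calc (c * y * c⁻¹) * t = c * y * (c⁻¹ * t) := by group
      _ = c * (y * t) * c⁻¹ := by rw [hct']; group
      _ = (c * t) * y * c⁻¹ := by rw [hyt]; group
      _ = t * (c * y * c⁻¹) := by rw [hct]; group
  have has'E := has
  -- the involution `b`
  obtain ⟨b, y, hbE, hb1, hbb, hbs, hbne, hyX, hyt, hy1, hby⟩ : ∃ b y : G, b ∈ E₀ ∧ b ≠ 1 ∧ b * b = 1 ∧
      b * s' = s' * b ∧ b ≠ s' ∧ y ∈ X ∧ y * t = t * y ∧ y ≠ 1 ∧ y * b = b * y := by
    obtain ⟨h1, h2⟩ := hYn a ha has y₀ hy₀ hy₀t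
    have hinva : a⁻¹ = a := inv_eq_of_mul_eq_one_right haa
    by_cases h3 : y₀ * (a * y₀ * a⁻¹) = 1
    · -- `a` inverts `y₀`
      have h4 : a * y₀ * a⁻¹ = y₀⁻¹ := (inv_eq_of_mul_eq_one_right h3).symm
      refine ⟨a * s', y₀, E₀.mul_mem ha hs'E, ?_, ?_, ?_, ?_, hy₀, hy₀t, hy₀1, ?_⟩
      · intro h
        apply hane
        rw [← mul_inv_eq_one, inv_eq_of_mul_eq_one_right hs's']
        exact h
      · calc a * s' * (a * s') = a * s' * (s' * a) := by rw [has]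
          _ = a * (s' * s') * a := by group
          _ = 1 := by rw [hs's', mul_one, haa]
      · rw [has, mul_assoc, has]
      · intro h
        exact ha1 (mul_eq_right.1 h)
      · have h5 : (a * s') * y₀ * (a * s')⁻¹ = y₀ := by
          calc (a * s') * y₀ * (a * s')⁻¹ = a * (s' * y₀ * s'⁻¹) * a⁻¹ := by group
            _ = a * y₀⁻¹ * a⁻¹ := by rw [hYinv y₀ hy₀ hy₀t]
            _ = (a * y₀ * a⁻¹)⁻¹ := by group
            _ = y₀ := by rw [h4, inv_inv]
        rw [mul_inv_eq_iff_eq_mul] at h5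
        exact h5.symm
    · refine ⟨a, y₀ * (a * y₀ * a⁻¹), ha, ha1, haa, has, hane, X.mul_mem hy₀ h1, ?_, h3, ?_⟩
      · calc y₀ * (a * y₀ * a⁻¹) * t = y₀ * ((a * y₀ * a⁻¹) * t) := by group
          _ = (y₀ * t) * (a * y₀ * a⁻¹) := by rw [h2]; group
          _ = t * (y₀ * (a * y₀ * a⁻¹)) := by rw [hy₀t]; group
      · have h5 := hXc y₀ hy₀ _ h1
        rw [hinva] at h5 ⊢
        calc y₀ * (a * y₀ * a) * a = y₀ * a * y₀ * (a * a) := by group
          _ = y₀ * a * y₀ := by rw [haa, mul_one]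
          _ = (a * a) * (y₀ * a * y₀) := by rw [haa, one_mul]
          _ = a * ((a * y₀ * a) * y₀) := by group
          _ = a * (y₀ * (a * y₀ * a)) := by rw [h5]
  have hyE := hYE y hyX hyt
  have hyo := orderOf_odd_of_mem hXo hyX
  have huniq : ∀ b' ∈ E₀, b' ≠ 1 → b' * b' = 1 → y * b' = b' * y → b' = b := by
    intro b' hb' hb'1 hb'b' hyb'
    have := hf.uniq ⟨y, hyE⟩ ⟨b', hb'⟩ ⟨b, hbE⟩ (fun h => hy1 (congrArg Subtype.val h))
      (by rwa [Subgroup.orderOf_mk]) (fun h => hb'1 (congrArg Subtype.val h)) (Subtype.ext hb'b')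
      (fun h => hb1 (congrArg Subtype.val h)) (Subtype.ext hbb) (Subtype.ext hyb') (Subtype.ext hby)
    exact congrArg Subtype.val this
  have hbconj : ∀ c : G, c * b * c⁻¹ ≠ 1 ∧ (c * b * c⁻¹) * (c * b * c⁻¹) = 1 := by
    intro c
    refine ⟨fun h => hb1 (conj_eq_one_iff.1 h), ?_⟩
    calc (c * b * c⁻¹) * (c * b * c⁻¹) = c * (b * b) * c⁻¹ := by group
      _ = 1 := by rw [hbb]; group
  -- `Y` centralises `b`
  have hYb : ∀ z ∈ X, z * t = t * z → z * b = b * z := by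
    intro z hz hzt
    have hzE := hYE z hz hzt
    have h1 : z * b * z⁻¹ = b := by
      apply huniq _ (E₀.mul_mem (E₀.mul_mem hzE hbE) (E₀.inv_mem hzE)) (hbconj z).1 (hbconj z).2
      have h2 := hXc y hyX z hz
      have h3 : z⁻¹ * y = y * z⁻¹ := (hXc y hyX z⁻¹ (X.inv_mem hz)).symm
      calc y * (z * b * z⁻¹) = (y * z) * b * z⁻¹ := by group
        _ = z * (y * b) * z⁻¹ := by rw [h2]; group
        _ = z * b * (y * z⁻¹) := by rw [hby]; group
        _ = z * b * z⁻¹ * y := by rw [← h3]; group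
    rwa [mul_inv_eq_iff_eq_mul] at h1
  -- `C(s') ≤ C(b)`
  have hle : ∀ c ∈ E₀, c * s' = s' * c → c * b = b * c := by
    intro c hc hcs'
    have h1 : c * b * c⁻¹ = b := by
      apply huniq _ (E₀.mul_mem (E₀.mul_mem hc hbE) (E₀.inv_mem hc)) (hbconj c).1 (hbconj c).2
      have hc' : c⁻¹ * s' = s' * c⁻¹ := by
        rw [inv_mul_eq_iff_eq_mul, ← mul_assoc, hcs', mul_inv_cancel_right]
      obtain ⟨h2, h3⟩ := hYn c⁻¹ (E₀.inv_mem hc) hc' y hyX hyt
      have h4 := hYb _ h2 h3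
      rw [inv_inv] at h4
      calc y * (c * b * c⁻¹) = c * ((c⁻¹ * y * c) * b) * c⁻¹ := by group
        _ = c * (b * (c⁻¹ * y * c)) * c⁻¹ := by rw [h4]
        _ = c * b * c⁻¹ * y := by group
    rwa [mul_inv_eq_iff_eq_mul] at h1
  -- equality
  obtain ⟨g, hg⟩ := hf.conj ⟨s', hs'E⟩ ⟨b, hbE⟩ (fun h => hs'1 (congrArg Subtype.val h))
    (Subtype.ext hs's') (fun h => hb1 (congrArg Subtype.val h)) (Subtype.ext hbb)
  have hle' : centralizer ({(⟨s', hs'E⟩ : E₀)} : Set E₀) ≤ centralizer ({(⟨b, hbE⟩ : E₀)} : Set E₀) := by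
    intro c hc
    rw [mem_centralizer_singleton_iff] at hc ⊢
    exact Subtype.ext (hle c c.2 (congrArg Subtype.val hc))
  have heq : centralizer ({(⟨s', hs'E⟩ : E₀)} : Set E₀) = centralizer ({(⟨b, hbE⟩ : E₀)} : Set E₀) := by
    apply Subgroup.eq_of_le_of_card_ge hle'
    have h1 : (centralizer ({(⟨b, hbE⟩ : E₀)} : Set E₀)).map (MulAut.conj g⁻¹).toMonoidHom ≤
        centralizer ({(⟨s', hs'E⟩ : E₀)} : Set E₀) := by
      rintro _ ⟨c, hc, rfl⟩
      rw [SetLike.mem_coe, mem_centralizer_singleton_iff] at hc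
      rw [mem_centralizer_singleton_iff]
      show (g⁻¹ * c * g⁻¹⁻¹) * _ = _ * (g⁻¹ * c * g⁻¹⁻¹)
      rw [← hg] at hc
      set S : E₀ := ⟨s', hs'E⟩
      calc (g⁻¹ * c * g⁻¹⁻¹) * S = g⁻¹ * (c * (g * S * g⁻¹)) * g := by group
        _ = g⁻¹ * ((g * S * g⁻¹) * c) * g := by rw [hc]
        _ = S * (g⁻¹ * c * g⁻¹⁻¹) := by group
    calc Nat.card (centralizer ({(⟨b, hbE⟩ : E₀)} : Set E₀)) =
        Nat.card ((centralizer ({(⟨b, hbE⟩ : E₀)} : Set E₀)).map (MulAut.conj g⁻¹).toMonoidHom) :=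
          (Subgroup.card_map_of_injective (MulAut.conj g⁻¹).injective).symm
      _ ≤ _ := Subgroup.card_le_of_le h1
  have hys' : y * s' = s' * y := by
    have h1 : (⟨y, hyE⟩ : E₀) ∈ centralizer ({(⟨s', hs'E⟩ : E₀)} : Set E₀) := by
      rw [heq, mem_centralizer_singleton_iff]
      exact Subtype.ext hby
    rw [mem_centralizer_singleton_iff] at h1
    exact congrArg Subtype.val h1
  apply hy1
  apply eq_one_of_odd hyo
  have h1 := hYinv y hyX hyt
  rw [← hys', mul_inv_cancel_right] at h1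
  nth_rewrite 1 [h1]
  rw [inv_mul_cancel]

end H37.CMax1
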