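import Cfsg.Agent.Lib.H37.CMax1
import Cfsg.Agent.Lib.H16.ZassKer
import Cfsg.Agent.Lib.H58.Rel
import Mathlib

/-!
# Maximality of the centraliser of an involution: fusion in the Sylow subgroup of order 8
-/

set_option autoImplicit false
set_option maxHeartbeats 1000000

namespace H37.CMax2

open Subgroup H37.PSLab H37.CMax1
open scoped commutatorElement

variable {G : Type*} [Group G] [Finite G]

theorem orbit_card (K : Subgroup G) (x : G) :
    Nat.card {y : G | ∃ k ∈ K, k * x * k⁻¹ = y} * Nat.card (K ⊓ centralizer {x} : Subgroup G) =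
      Nat.card K := by
  letI := H16.ZassKer.conjAct K
  have h1 := H16.ZassKer.conj_orbit_card K x
  have h2 : {y : G | ∃ k ∈ K, k * x * k⁻¹ = y} = MulAction.orbit K x := by
    ext y
    constructor
    · rintro ⟨k, hk, rfl⟩; exact ⟨⟨k, hk⟩, rfl⟩
    · rintro ⟨k, rfl⟩; exact ⟨k, k.2, rfl⟩
  rw [h2]
  exact h1

theorem odd_orbit (T : Sylow 2 G) (K : Subgroup G) (hTK : (T : Subgroup G) ≤ K) (t : G)
    (hTt : ∀ x ∈ (T : Subgroup G), x * t = t * x) :
    Odd (Nat.card {y : G | ∃ k ∈ K, k * t * k⁻¹ = y}) := by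
  have hp : Fact (Nat.Prime 2) := ⟨Nat.prime_two⟩
  have h1 := orbit_card K t
  have hle : (T : Subgroup G) ≤ K ⊓ centralizer {t} :=
    le_inf hTK (fun x hx => mem_centralizer_singleton_iff.2 (hTt x hx))
  obtain ⟨m, hm⟩ := Subgroup.card_dvd_of_le hle
  have h2 : Nat.card (T : Subgroup G) * (T : Subgroup G).relIndex K = Nat.card K := by
    have := Subgroup.card_mul_index ((T : Subgroup G).subgroupOf K)
    rwa [Nat.card_congr (Subgroup.subgroupOfEquivOfLe hTK).toEquiv] at this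
  rw [hm, ← h2] at h1
  have hpos : 0 < Nat.card (T : Subgroup G) := Nat.card_pos
  have h3 : Nat.card {y : G | ∃ k ∈ K, k * t * k⁻¹ = y} * m = (T : Subgroup G).relIndex K := by
    apply Nat.eq_of_mul_eq_mul_left hpos
    rw [← h1]; ring
  have h4 : ¬ 2 ∣ (T : Subgroup G).relIndex K := fun h =>
    T.not_dvd_index (h.trans (Subgroup.relIndex_dvd_index_of_le hTK))
  rw [← Nat.not_even_iff_odd, even_iff_two_dvd]
  intro h
  exact h4 (h3 ▸ Dvd.dvd.mul_right h m)

/-- the situation -/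
structure Ctx (t : G) (E E₀ : Subgroup G) (T : Sylow 2 G) (V : Subgroup G) : Prop where
  ht1 : t ≠ 1
  htt : t * t = 1
  tT : t ∈ (T : Subgroup G)
  Tc : ∀ a ∈ (T : Subgroup G), ∀ b ∈ (T : Subgroup G), a * b = b * a
  dec : ∀ c, c * t = t * c → c ∈ E ∨ c * t ∈ E
  Ecomm : ∀ e ∈ E, e * t = t * e
  le : E₀ ≤ E
  nor : ∀ c, c * t = t * c → ∀ e ∈ E₀, c * e * c⁻¹ ∈ E₀
  cen : ∀ c ∈ E, (∀ e ∈ E₀, c * e = e * c) → c = 1
  fct : Fct E₀
  tE : t ∉ E
  VT : ∀ v ∈ V, v ∈ (T : Subgroup G)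
  VE : V ≤ E₀
  TV : ∀ v ∈ (T : Subgroup G), v ∈ E → v ∈ V
  V4 : Nat.card V = 4
  Vexp : ∀ v ∈ V, v * v = 1
  Vconj : ∀ v ∈ V, ∀ w ∈ V, v ≠ 1 → w ≠ 1 → ∃ g ∈ E₀, g * v * g⁻¹ = w ∧ (∀ x ∈ V, g * x * g⁻¹ ∈ V)

variable {t : G} {E E₀ V : Subgroup G} {T : Sylow 2 G}

theorem Ctx.Tdec (c : Ctx t E E₀ T V) {x : G} (hx : x ∈ (T : Subgroup G)) : x ∈ V ∨ x * t ∈ V := by
  rcases c.dec x (c.Tc x hx t c.tT) with h | h
  · exact Or.inl (c.TV x hx h)
  · exact Or.inr (c.TV _ (mul_mem hx c.tT) h)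

theorem Ctx.tV (c : Ctx t E E₀ T V) : t ∉ V := fun h => c.tE (c.le (c.VE h))

theorem Ctx.gN (c : Ctx t E E₀ T V) {g : G} (hg : g ∈ E₀) (h : ∀ x ∈ V, g * x * g⁻¹ ∈ V) :
    g ∈ normalizer ((T : Subgroup G) : Set G) := by
  have hgt : g * t = t * g := c.Ecomm g (c.le hg)
  have key : (T : Subgroup G).map (MulAut.conj g).toMonoidHom ≤ (T : Subgroup G) := by
    rintro _ ⟨x, hx, rfl⟩
    show g * x * g⁻¹ ∈ (T : Subgroup G)
    rcases c.Tdec hx with h1 | h1
    · exact c.VT _ (h x h1)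
    · have h2 : g * x * g⁻¹ = (g * (x * t) * g⁻¹) * t := by
        have h3 : g⁻¹ * t = t * g⁻¹ := by
          rw [inv_mul_eq_iff_eq_mul, ← mul_assoc, hgt, mul_inv_cancel_right]
        calc g * x * g⁻¹ = g * x * (t * t) * g⁻¹ := by rw [c.htt, mul_one]
          _ = g * (x * t) * (t * g⁻¹) := by group
          _ = (g * (x * t) * g⁻¹) * t := by rw [← h3]; group
      rw [h2]
      exact mul_mem (c.VT _ (h _ h1)) c.tT
  have heq : (T : Subgroup G).map (MulAut.conj g).toMonoidHom = (T : Subgroup G) :=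
    Subgroup.eq_of_le_of_card_ge key (by
      rw [Subgroup.card_map_of_injective (MulAut.conj g).injective])
  rw [mem_normalizer_iff]
  intro x
  constructor
  · intro hx
    exact key ⟨x, hx, rfl⟩
  · intro hx
    rw [← heq] at hx
    obtain ⟨y, hy, hyx⟩ := hx
    have : g * y * g⁻¹ = g * x * g⁻¹ := hyx
    have := mul_left_cancel (mul_right_cancel this)
    rw [← this]; exact hy

theorem Ctx.orbit (c : Ctx t E E₀ T V) (K : Subgroup G) (hTK : (T : Subgroup G) ≤ K)
    (hKN : K ≤ normalizer ((T : Subgroup G) : Set G))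
    (hEK : ∀ g ∈ E₀, g ∈ normalizer ((T : Subgroup G) : Set G) → g ∈ K) :
    (∀ x ∈ (T : Subgroup G), x ≠ 1 → ∃ k ∈ K, k * t * k⁻¹ = x) ∨ ∀ k ∈ K, k * t = t * k := by
  classical
  have hodd := odd_orbit T K hTK t (fun x hx => c.Tc x hx t c.tT)
  set O : Set G := {y : G | ∃ k ∈ K, k * t * k⁻¹ = y} with hO
  have hOT : ∀ x ∈ O, x ∈ (T : Subgroup G) := by
    rintro _ ⟨k, hk, rfl⟩
    exact (mem_normalizer_iff.1 (hKN hk) t).1 c.tT
  have hO1 : ∀ x ∈ O, x ≠ 1 := by
    rintro _ ⟨k, hk, rfl⟩ h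
    exact c.ht1 (conj_eq_one_iff.1 h)
  have htO : t ∈ O := ⟨1, K.one_mem, by simp⟩
  have hcl : ∀ g ∈ K, ∀ x ∈ O, g * x * g⁻¹ ∈ O := by
    rintro g hg _ ⟨k, hk, rfl⟩
    exact ⟨g * k, K.mul_mem hg hk, by group⟩
  have hA : (∃ v ∈ V, v ≠ 1 ∧ v ∈ O) → ∀ w ∈ V, w ≠ 1 → w ∈ O := by
    rintro ⟨v, hv, hv1, hvO⟩ w hw hw1
    obtain ⟨g, hg, hgv, hgV⟩ := c.Vconj v hv w hw hv1 hw1
    rw [← hgv]
    exact hcl g (hEK g hg (c.gN hg hgV)) v hvO
  have hB : (∃ v ∈ V, v ≠ 1 ∧ v * t ∈ O) → ∀ w ∈ V, w ≠ 1 → w * t ∈ O := by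
    rintro ⟨v, hv, hv1, hvO⟩ w hw hw1
    obtain ⟨g, hg, hgv, hgV⟩ := c.Vconj v hv w hw hv1 hw1
    have h1 := hcl g (hEK g hg (c.gN hg hgV)) _ hvO
    have h2 : g * (v * t) * g⁻¹ = w * t := by
      rw [← hgv]
      have hgt : g * t = t * g := c.Ecomm g (c.le hg)
      have h3 : g⁻¹ * t = t * g⁻¹ := by
        rw [inv_mul_eq_iff_eq_mul, ← mul_assoc, hgt, mul_inv_cancel_right]
      rw [mul_assoc (g * v), h3]; group
    rwa [h2] at h1
  by_cases a : ∃ v ∈ V, v ≠ 1 ∧ v ∈ O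
  · by_cases b : ∃ v ∈ V, v ≠ 1 ∧ v * t ∈ O
    · left
      intro x hx hx1
      rcases c.Tdec hx with h | h
      · exact hA a x h hx1
      · by_cases hxt : x * t = 1
        · have : x = t := by rw [← mul_inv_eq_one, inv_eq_of_mul_eq_one_right c.htt]; exact hxt
          rw [this]; exact htO
        · have := hB b _ h hxt
          rwa [mul_assoc, c.htt, mul_one] at this
    · exfalso
      have h1 : O = insert t ((V : Set G) \ {1}) := by
        ext x
        constructor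
        · intro hx
          rcases c.Tdec (hOT x hx) with h | h
          · right; exact ⟨h, hO1 x hx⟩
          · left
            by_contra hne
            apply b
            refine ⟨x * t, h, ?_, by rwa [mul_assoc, c.htt, mul_one]⟩
            intro h2
            apply hne
            rw [← mul_inv_eq_one, inv_eq_of_mul_eq_one_right c.htt]; exact h2
        · rintro (rfl | ⟨h, h1⟩)
          · exact htO
          · exact hA a x h h1
      have h2 : (insert t ((V : Set G) \ {1})).ncard = 4 := by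
        rw [Set.ncard_insert_of_notMem (fun h => c.tV h.1) (Set.toFinite _),
          Set.ncard_diff_singleton_of_mem (show (1 : G) ∈ (V : Set G) from V.one_mem)]
        have : (V : Set G).ncard = 4 := by rw [← c.V4]; rfl
        rw [this]
      rw [Nat.card_coe_set_eq, h1, h2] at hodd
      exact absurd hodd (by decide)
  · by_cases b : ∃ v ∈ V, v ≠ 1 ∧ v * t ∈ O
    · exfalso
      have h1 : O = (fun v => v * t) '' (V : Set G) := by
        ext x
        constructor
        · intro hx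
          rcases c.Tdec (hOT x hx) with h | h
          · exact absurd ⟨x, h, hO1 x hx, hx⟩ a
          · exact ⟨x * t, h, by show x * t * t = x; rw [mul_assoc, c.htt, mul_one]⟩
        · rintro ⟨v, hv, rfl⟩
          by_cases hv1 : v = 1
          · subst hv1; simpa using htO
          · exact hB b v hv hv1
      have h2 : ((fun v => v * t) '' (V : Set G)).ncard = 4 := by
        rw [Set.ncard_image_of_injective _ (mul_left_injective t)]
        rw [← c.V4]; rfl
      rw [Nat.card_coe_set_eq, h1, h2] at hodd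
      exact absurd hodd (by decide)
    · right
      intro k hk
      have hx : k * t * k⁻¹ ∈ O := ⟨k, hk, rfl⟩
      suffices h : k * t * k⁻¹ = t by
        rwa [mul_inv_eq_iff_eq_mul] at h
      rcases c.Tdec (hOT _ hx) with h | h
      · exact absurd ⟨_, h, hO1 _ hx, hx⟩ a
      · by_contra hne
        apply b
        refine ⟨k * t * k⁻¹ * t, h, ?_, by rwa [mul_assoc _ t t, c.htt, mul_one]⟩
        intro h2
        apply hne
        rw [← mul_inv_eq_one, inv_eq_of_mul_eq_one_right c.htt]; exact h2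

theorem Ctx.card_T (c : Ctx t E E₀ T V) : Nat.card (T : Subgroup G) = 8 := by
  have h1 : V.relIndex (T : Subgroup G) = 2 := by
    rw [Subgroup.relIndex_eq_two_iff_exists_notMem_and]
    refine ⟨t, c.tT, c.tV, fun b hb => ?_⟩
    rcases c.Tdec hb with h | h
    · right; exact h
    · left; exact h
  have h4 := Subgroup.card_mul_index (V.subgroupOf (T : Subgroup G))
  rw [Nat.card_congr (Subgroup.subgroupOfEquivOfLe (show V ≤ (T : Subgroup G) from c.VT)).toEquiv, c.V4] at h4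
  have h5 : (V.subgroupOf (T : Subgroup G)).index = 2 := h1
  rw [h5] at h4
  exact h4.symm

/-- involutions of an overgroup of `T` are conjugate into `T` -/
theorem conj_into (T : Sylow 2 G) (H : Subgroup G) (hTH : (T : Subgroup G) ≤ H) {x : G} (hx : x ∈ H)
    (hxx : orderOf x = 2) : ∃ h ∈ H, h * x * h⁻¹ ∈ (T : Subgroup G) := by
  have hp : Fact (Nat.Prime 2) := ⟨Nat.prime_two⟩
  have hSi : ¬ 2 ∣ (T : Subgroup G).relIndex H := by
    intro h
    exact T.not_dvd_index (h.trans (Subgroup.relIndex_dvd_index_of_le hTH))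
  have hz : IsPGroup 2 (zpowers x) := IsPGroup.of_card (n := 1) (by rw [Nat.card_zpowers, hxx, pow_one])
  obtain ⟨h, hh, hhQ⟩ := H58.Rel.exists_conj_mem_sylowOf ((zpowers_le).2 hx) hz T.isPGroup' hSi
  exact ⟨h, hh, hhQ x (mem_zpowers x)⟩

/-- strongly embedded overgroups -/
theorem Ctx.se (c : Ctx t E E₀ T V) {H : Subgroup G} (hH : H ≠ ⊤) (hCH : ∀ x, x * t = t * x → x ∈ H)
    (hall : ∀ x ∈ (T : Subgroup G), x ≠ 1 → ∃ k ∈ H, k * t * k⁻¹ = x) : Cfsg.IsStronglyEmbedded H := by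
  have hp : Fact (Nat.Prime 2) := ⟨Nat.prime_two⟩
  have hTH : (T : Subgroup G) ≤ H := fun x hx => hCH x (c.Tc x hx t c.tT)
  have hto : orderOf t = 2 := orderOf_eq_prime (by rw [sq, c.htt]) c.ht1
  have key : ∀ x ∈ H, orderOf x = 2 → ∃ k ∈ H, k * t * k⁻¹ = x := by
    intro x hx hxx
    obtain ⟨h, hh, hT⟩ := conj_into T H hTH hx hxx
    obtain ⟨k, hk, hkt⟩ := hall _ hT (fun h1 => by
      rw [conj_eq_one_iff] at h1
      rw [h1, orderOf_one] at hxx
      omega)
    refine ⟨h⁻¹ * k, H.mul_mem (H.inv_mem hh) hk, ?_⟩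
    calc h⁻¹ * k * t * (h⁻¹ * k)⁻¹ = h⁻¹ * (k * t * k⁻¹) * h := by group
      _ = x := by rw [hkt]; group
  refine ⟨hH, ?_, ?_⟩
  · rw [even_iff_two_dvd, ← hto]
    have := orderOf_dvd_natCard (⟨t, hTH c.tT⟩ : H)
    rwa [Subgroup.orderOf_mk] at this
  · intro g hg
    rw [← Nat.not_even_iff_odd, even_iff_two_dvd]
    intro h2
    obtain ⟨⟨x, hx⟩, hxx⟩ := exists_prime_orderOf_dvd_card' 2 h2
    rw [Subgroup.orderOf_mk] at hxx
    obtain ⟨hx1, y, hy, hyx⟩ := mem_inf.1 hx
    have hyx' : g * y * g⁻¹ = x := hyx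
    have hyy : orderOf y = 2 := by
      rw [← hxx, ← hyx']
      have := MulEquiv.orderOf_eq (MulAut.conj g) y
      rw [MulAut.conj_apply] at this
      exact this.symm
    obtain ⟨h, hh, hht⟩ := key x hx1 hxx
    obtain ⟨k, hk, hkt⟩ := key y hy hyy
    apply hg
    have h3 : (h⁻¹ * g * k) * t = t * (h⁻¹ * g * k) := by
      have h4 : g * (k * t * k⁻¹) * g⁻¹ = h * t * h⁻¹ := by rw [hkt, hyx', hht]
      calc (h⁻¹ * g * k) * t = h⁻¹ * (g * (k * t * k⁻¹) * g⁻¹) * g * k := by group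
        _ = h⁻¹ * (h * t * h⁻¹) * g * k := by rw [h4]
        _ = t * (h⁻¹ * g * k) := by group
    have h5 := hCH _ h3
    have h6 : g = h * (h⁻¹ * g * k) * k⁻¹ := by group
    rw [h6]
    exact H.mul_mem (H.mul_mem hh h5) (H.inv_mem hk)

/-- `21` divides `|N_G(T)|` -/
theorem Ctx.dvd (c : Ctx t E E₀ T V)
    (hall : ∀ x ∈ (T : Subgroup G), x ≠ 1 → ∃ k ∈ normalizer ((T : Subgroup G) : Set G), k * t * k⁻¹ = x) :
    3 ∣ Nat.card (normalizer ((T : Subgroup G) : Set G)) ∧
      7 ∣ Nat.card (normalizer ((T : Subgroup G) : Set G)) := by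
  classical
  constructor
  · obtain ⟨v, hv, hv1⟩ : ∃ v ∈ V, v ≠ 1 := by
      by_contra h
      push Not at h
      have h1 := (Subgroup.eq_bot_iff_forall V).2 h
      have h2 := c.V4
      rw [h1, Subgroup.card_bot] at h2
      omega
    have h1 := orbit_card (E₀ ⊓ normalizer (V : Set G)) v
    have h2 : {y : G | ∃ k ∈ E₀ ⊓ normalizer (V : Set G), k * v * k⁻¹ = y} = (V : Set G) \ {1} := by
      ext y
      constructor
      · rintro ⟨k, hk, rfl⟩
        refine ⟨(mem_normalizer_iff.1 hk.2 v).1 hv, fun h => hv1 (conj_eq_one_iff.1 h)⟩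
      · rintro ⟨hy, hy1⟩
        obtain ⟨g, hg, hgv, hgV⟩ := c.Vconj v hv y hy hv1 hy1
        refine ⟨g, mem_inf.2 ⟨hg, ?_⟩, hgv⟩
        have key : V.map (MulAut.conj g).toMonoidHom ≤ V := by
          rintro _ ⟨x, hx, rfl⟩
          exact hgV x hx
        have heq : V.map (MulAut.conj g).toMonoidHom = V :=
          Subgroup.eq_of_le_of_card_ge key (by
            rw [Subgroup.card_map_of_injective (MulAut.conj g).injective])
        rw [mem_normalizer_iff]
        intro x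
        refine ⟨fun hx => hgV x hx, fun hx => ?_⟩
        rw [← heq] at hx
        obtain ⟨z, hz, hzx⟩ := hx
        have : g * z * g⁻¹ = g * x * g⁻¹ := hzx
        have := mul_left_cancel (mul_right_cancel this)
        rw [← this]; exact hz
    rw [h2, Nat.card_coe_set_eq,
      Set.ncard_diff_singleton_of_mem (show (1 : G) ∈ (V : Set G) from V.one_mem)] at h1
    have h3 : (V : Set G).ncard = 4 := by rw [← c.V4]; rfl
    rw [h3] at h1
    have h4 : E₀ ⊓ normalizer (V : Set G) ≤ normalizer ((T : Subgroup G) : Set G) := by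
      intro g hg
      exact c.gN hg.1 (fun x hx => (mem_normalizer_iff.1 hg.2 x).1 hx)
    refine Dvd.dvd.trans ?_ (Subgroup.card_dvd_of_le h4)
    rw [← h1]
    exact Dvd.intro _ rfl
  · have h1 := orbit_card (normalizer ((T : Subgroup G) : Set G)) t
    have h2 : {y : G | ∃ k ∈ normalizer ((T : Subgroup G) : Set G), k * t * k⁻¹ = y} =
        ((T : Subgroup G) : Set G) \ {1} := by
      ext y
      constructor
      · rintro ⟨k, hk, rfl⟩
        exact ⟨(mem_normalizer_iff.1 hk t).1 c.tT, fun h => c.ht1 (conj_eq_one_iff.1 h)⟩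
      · rintro ⟨hy, hy1⟩
        exact hall y hy hy1
    rw [h2, Nat.card_coe_set_eq,
      Set.ncard_diff_singleton_of_mem (show (1 : G) ∈ ((T : Subgroup G) : Set G) from one_mem _)] at h1
    have h3 : ((T : Subgroup G) : Set G).ncard = 8 := by rw [← c.card_T]; rfl
    rw [h3] at h1
    rw [← h1]
    exact Dvd.intro _ rfl

end H37.CMax2
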