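import Cfsg.Agent.Lib.H37.CMax2

/-!
# Maximality of the centraliser of an involution: assembly, local part
-/

set_option autoImplicit false
set_option maxHeartbeats 1000000

namespace H37.CMax3

open Subgroup H37.PSLab H37.CMax1 H37.CMax2
open scoped commutatorElement

variable {G : Type*} [Group G] [Finite G]

theorem exists_ctx (hab : ∀ S : Sylow 2 G, ∀ a ∈ (S : Subgroup G), ∀ b ∈ (S : Subgroup G), a * b = b * a)
    (t : G) (ht : orderOf t = 2) (E E₀ : Subgroup G)
    (hprod : Cfsg.IsInternalDirectProduct (Subgroup.zpowers t) E (Subgroup.centralizer ({t} : Set G)))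
    (hE₀E : E₀ ≤ E) (hE₀n : (E₀.subgroupOf E).Normal) (hf : Fct E₀)
    (hCE : E ⊓ Subgroup.centralizer (E₀ : Set G) = ⊥) :
    ∃ (T : Sylow 2 G) (V : Subgroup G), Ctx t E E₀ T V := by
  have hp : Fact (Nat.Prime 2) := ⟨Nat.prime_two⟩
  obtain ⟨hE1, hE2, hE3, hE4, hE5⟩ := hprod
  have htp : IsPGroup 2 (zpowers t) := IsPGroup.of_card (n := 1) (by rw [Nat.card_zpowers, ht, pow_one])
  obtain ⟨T, hT⟩ := htp.exists_le_sylow
  have htT : t ∈ (T : Subgroup G) := hT (mem_zpowers t)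
  have hTc := hab T
  have htt : t * t = 1 := by rw [← pow_two, ← ht, pow_orderOf_eq_one]
  have ht1 : t ≠ 1 := by
    rintro rfl
    rw [orderOf_one] at ht
    omega
  have htE : t ∉ E := by
    intro h
    have h1 : t ∈ zpowers t ⊓ E := ⟨mem_zpowers t, h⟩
    rw [hE4, Subgroup.mem_bot] at h1
    exact ht1 h1
  have hdec : ∀ c, c * t = t * c → c ∈ E ∨ c * t ∈ E := by
    intro c hc
    have hc' : c ∈ centralizer ({t} : Set G) := mem_centralizer_singleton_iff.2 hc
    rw [← hE5] at hc'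
    obtain ⟨a, ha, e, he, rfl⟩ := (H58.SL2Prod.mem_sup_iff hE3).1 hc'
    rcases (H58.SL2Prod.mem_zpowers_two ht).1 ha with rfl | rfl
    · left; rwa [one_mul]
    · right
      have h1 := hE3 a ha e he
      rw [h1, mul_assoc, htt, mul_one]; exact he
  have hEcomm : ∀ e ∈ E, e * t = t * e := fun e he => (hE3 t (mem_zpowers t) e he).symm
  have hnorE : ∀ c ∈ E, ∀ e ∈ E₀, c * e * c⁻¹ ∈ E₀ := by
    intro c hc e he
    exact mem_subgroupOf.1 (hE₀n.conj_mem ⟨e, hE₀E he⟩ (mem_subgroupOf.2 he) ⟨c, hc⟩)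
  have hnor : ∀ c, c * t = t * c → ∀ e ∈ E₀, c * e * c⁻¹ ∈ E₀ := by
    intro c hc e he
    rcases hdec c hc with h | h
    · exact hnorE c h e he
    · have h1 := hnorE _ h e he
      have h2 : (c * t) * e * (c * t)⁻¹ = c * e * c⁻¹ := by
        have h3 := hEcomm e (hE₀E he)
        calc (c * t) * e * (c * t)⁻¹ = c * (t * e) * t⁻¹ * c⁻¹ := by group
          _ = c * e * c⁻¹ := by rw [← h3]; group
      rwa [h2] at h1
  have hcen : ∀ c ∈ E, (∀ e ∈ E₀, c * e = e * c) → c = 1 := by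
    intro c hc h
    have : c ∈ E ⊓ centralizer (E₀ : Set G) :=
      mem_inf.2 ⟨hc, mem_centralizer_iff.2 (fun e he => (h e he).symm)⟩
    rw [hCE] at this
    exact Subgroup.mem_bot.1 this
  set V : Subgroup G := (T : Subgroup G) ⊓ E with hV
  -- maximality of `V` among 2-subgroups of `E`
  have hmax : ∀ Q : Subgroup G, Q ≤ E → IsPGroup 2 Q → V ≤ Q → Q ≤ V := by
    intro Q hQE hQ hVQ
    have h1 : Q ≤ normalizer ((zpowers t : Subgroup G) : Set G) := by
      intro q hq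
      rw [mem_normalizer_iff]
      intro z
      constructor
      · intro hz
        have h5 := hE3 z hz q (hQE hq)
        rwa [← h5, mul_inv_cancel_right]
      · intro hz
        have h5 := hE3 _ hz q (hQE hq)
        have h6 : q * z = z * q := by
          have h7 : q * z * q⁻¹ * q = q * z := by group
          rw [h7] at h5
          have h8 : q * (q * z * q⁻¹) = q * z := by rw [← h5]
          have h9 := mul_left_cancel h8
          rw [mul_inv_eq_iff_eq_mul] at h9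
          exact h9
        rwa [h6, mul_inv_cancel_right] at hz
    have h2 : IsPGroup 2 (Q ⊔ zpowers t : Subgroup G) := hQ.to_sup_of_normal_right' htp h1
    have h3 : (T : Subgroup G) ≤ Q ⊔ zpowers t := by
      intro x hx
      rcases hdec x (hTc x hx t htT) with h | h
      · exact le_sup_left (b := zpowers t) (hVQ (mem_inf.2 ⟨hx, h⟩))
      · have h4 : x * t ∈ Q := hVQ (mem_inf.2 ⟨mul_mem hx htT, h⟩)
        have h5 : x = x * t * t := by rw [mul_assoc, htt, mul_one]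
        rw [h5]
        exact mul_mem (le_sup_left (b := zpowers t) h4) (le_sup_right (a := Q) (mem_zpowers t))
    have h4 := T.is_maximal' h2 h3
    refine le_inf ?_ hQE
    rw [← h4]
    exact le_sup_left
  have hVE : V ≤ E₀ := by
    apply lemA E₀ V
    · intro v hv x hx
      exact hnorE v hv.2 x hx
    · intro a ha b hb
      exact hTc a ha.1 b hb.1
    · exact T.isPGroup'.to_le inf_le_left
    · intro Q hQ hQ2 hle
      exact hmax Q (hQ.trans (sup_le hE₀E inf_le_right)) hQ2 hle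
    · exact hf.odd
    · intro x hx h
      exact hcen x ((sup_le hE₀E inf_le_right : E₀ ⊔ V ≤ E) hx) h
  -- `V` as a Sylow subgroup of `E₀`
  let P : Sylow 2 E₀ :=
    { toSubgroup := V.subgroupOf E₀
      isPGroup' := (T.isPGroup'.to_le inf_le_left : IsPGroup 2 V).comap_of_injective _ (Subgroup.subtype_injective _)
      is_maximal' := by
        intro Q hQ hle
        apply le_antisymm _ hle
        intro q hq
        rw [mem_subgroupOf]
        apply hmax (Q.map E₀.subtype) ((Subgroup.map_subtype_le _).trans hE₀E) (hQ.map _)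
        · intro v hv
          exact ⟨⟨v, hVE hv⟩, hle (mem_subgroupOf.2 hv), rfl⟩
        · exact ⟨q, hq, rfl⟩ }
  have hPV : (P : Subgroup E₀) = V.subgroupOf E₀ := rfl
  have hPc : IsMulCommutative (P : Subgroup E₀) := ⟨⟨by
      rintro ⟨⟨a, ha⟩, ha'⟩ ⟨⟨b, hb⟩, hb'⟩
      apply Subtype.ext
      apply Subtype.ext
      exact hTc a (mem_subgroupOf.1 ha').1 b (mem_subgroupOf.1 hb').1⟩⟩
  obtain ⟨h4, hexp⟩ := hf.syl P hPc
  refine ⟨T, V, ht1, htt, htT, hTc, hdec, hEcomm, hE₀E, hnor, hcen, hf, htE, fun v hv => hv.1, hVE,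
    fun v hv hvE => mem_inf.2 ⟨hv, hvE⟩, ?_, ?_, ?_⟩
  · rw [← h4]
    show Nat.card V = Nat.card (V.subgroupOf E₀)
    exact (Nat.card_congr (Subgroup.subgroupOfEquivOfLe hVE).toEquiv).symm
  · intro v hv
    exact congrArg Subtype.val (hexp ⟨v, hVE hv⟩ (mem_subgroupOf.2 hv))
  · intro v hv w hw hv1 hw1
    obtain ⟨g, hg⟩ := hf.conj ⟨v, hVE hv⟩ ⟨w, hVE hw⟩ (fun h => hv1 (congrArg Subtype.val h))
      (hexp ⟨v, hVE hv⟩ (mem_subgroupOf.2 hv)) (fun h => hw1 (congrArg Subtype.val h))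
      (hexp ⟨w, hVE hw⟩ (mem_subgroupOf.2 hw))
    obtain ⟨h, hh, hhe⟩ := H2.Control.normalizer_control_of_abelian P hPc ⟨v, hVE hv⟩
      (mem_subgroupOf.2 hv) g (by rw [hg]; exact mem_subgroupOf.2 hw)
    refine ⟨h, h.2, ?_, ?_⟩
    · rw [hg] at hhe
      exact congrArg Subtype.val hhe
    · intro x hx
      exact mem_subgroupOf.1 ((mem_normalizer_iff.1 hh ⟨x, hVE hx⟩).1 (mem_subgroupOf.2 hx))

/-- in the isolated case an overgroup of `C(t)` is `C(t)` -/
theorem isolated {t : G} {E E₀ V : Subgroup G} {T : Sylow 2 G} (c : Ctx t E E₀ T V) (H : Subgroup G)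
    (hCH : ∀ x, x * t = t * x → x ∈ H)
    (hall : ∀ x ∈ (T : Subgroup G), x ≠ 1 → ∃ k ∈ normalizer ((T : Subgroup G) : Set G), k * t * k⁻¹ = x)
    (hiso : ∀ k ∈ H, k ∈ normalizer ((T : Subgroup G) : Set G) → k * t = t * k) :
    ∀ x ∈ H, x * t = t * x := by
  have hp : Fact (Nat.Prime 2) := ⟨Nat.prime_two⟩
  have hTH : (T : Subgroup G) ≤ H := fun x hx => hCH x (c.Tc x hx t c.tT)
  have hto : orderOf t = 2 := orderOf_eq_prime (by rw [sq, c.htt]) c.ht1
  have htH : t ∈ H := hTH c.tT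
  have hinvt : t⁻¹ = t := inv_eq_of_mul_eq_one_right c.htt
  let P : Sylow 2 H := T.subtype hTH
  have hPmem : ∀ x : H, x ∈ (P : Subgroup H) ↔ (x : G) ∈ (T : Subgroup G) := fun x => by
    rw [Sylow.coe_subtype, mem_subgroupOf]
  have hPc : IsMulCommutative (P : Subgroup H) := ⟨⟨by
      rintro ⟨a, ha⟩ ⟨b, hb⟩
      apply Subtype.ext
      apply Subtype.ext
      exact c.Tc a ((hPmem a).1 ha) b ((hPmem b).1 hb)⟩⟩
  have hz := H5.ZStar.sylow_form P ⟨t, htH⟩ (by rw [Subgroup.orderOf_mk]; exact hto) (by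
    intro g hg
    obtain ⟨h, hh, hhe⟩ := H2.Control.normalizer_control_of_abelian P hPc ⟨t, htH⟩ ((hPmem _).2 c.tT) g hg
    rw [← hhe]
    have h1 : (h : G) ∈ normalizer ((T : Subgroup G) : Set G) := by
      rw [mem_normalizer_iff]
      intro x
      constructor
      · intro hx
        exact (hPmem _).1 ((mem_normalizer_iff.1 hh ⟨x, hTH hx⟩).1 ((hPmem _).2 hx))
      · intro hx
        have hxH : x ∈ H := by
          have := hTH hx
          have h3 : x = (h : G)⁻¹ * (h * x * (h : G)⁻¹) * h := by group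
          rw [h3]
          exact H.mul_mem (H.mul_mem (H.inv_mem h.2) this) h.2
        exact (hPmem ⟨x, hxH⟩).1 ((mem_normalizer_iff.1 hh ⟨x, hxH⟩).2 ((hPmem _).2 hx))
    have h2 := hiso h h.2 h1
    apply Subtype.ext
    show (h : G) * t * (h : G)⁻¹ = t
    rw [h2, mul_inv_cancel_right])
  set X : Subgroup G := (Cfsg.pPrimeCore 2 H).map H.subtype with hX
  have hXo : Odd (Nat.card X) := by
    rw [hX, Subgroup.card_map_of_injective (Subgroup.subtype_injective _)]
    have h1 := H1.Cores.coprime_card_pPrimeCore (G := H) 2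
    rwa [Nat.coprime_comm, Nat.coprime_two_left] at h1
  have hXH : X ≤ H := Subgroup.map_subtype_le _
  have hXn : ∀ h ∈ H, ∀ x ∈ X, h * x * h⁻¹ ∈ X := by
    rintro h hh _ ⟨x, hx, rfl⟩
    exact ⟨⟨h, hh⟩ * x * ⟨h, hh⟩⁻¹, (inferInstance : (Cfsg.pPrimeCore 2 H).Normal).conj_mem x hx _, rfl⟩
  have hzX : ∀ h ∈ H, t * h * t⁻¹ * h⁻¹ ∈ X := by
    intro h hh
    exact ⟨_, hz ⟨h, hh⟩, rfl⟩
  -- `X ∩ C(t) = 1`
  have hfix : ∀ x ∈ X, x * t = t * x → x = 1 := by
    intro x hx hxt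
    have hxo := orderOf_odd_of_mem hXo hx
    have hK : X.subgroupOf E₀ = ⊥ := by
      apply c.fct.odd
      · refine ⟨fun n hn g => ?_⟩
        rw [mem_subgroupOf] at hn ⊢
        exact hXn g (hCH _ (c.Ecomm g (c.le g.2))) n hn
      · have h1 : Nat.card (X.subgroupOf E₀) ∣ Nat.card X := by
          have h2 : Nat.card (X.subgroupOf E₀) = Nat.card ((X.subgroupOf E₀).map E₀.subtype) :=
            (Subgroup.card_map_of_injective (Subgroup.subtype_injective _)).symm
          rw [h2, Subgroup.subgroupOf_map_subtype]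
          exact Subgroup.card_dvd_of_le inf_le_left
        exact Odd.of_dvd_nat hXo h1
    have hcent : ∀ e ∈ E₀, x * e = e * x := by
      intro e he
      have h1 : x * e * x⁻¹ * e⁻¹ ∈ E₀ := E₀.mul_mem (c.nor x hxt e he) (E₀.inv_mem he)
      have h2 : x * e * x⁻¹ * e⁻¹ ∈ X := by
        have h3 := hXn e (hCH _ (c.Ecomm e (c.le he))) x⁻¹ (X.inv_mem hx)
        have h4 : x * e * x⁻¹ * e⁻¹ = x * (e * x⁻¹ * e⁻¹) := by group
        rw [h4]
        exact X.mul_mem hx h3
      have h3 : (⟨_, h1⟩ : E₀) ∈ X.subgroupOf E₀ := mem_subgroupOf.2 h2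
      rw [hK, Subgroup.mem_bot] at h3
      have h4 : x * e * x⁻¹ * e⁻¹ = 1 := congrArg Subtype.val h3
      rw [mul_inv_eq_one, mul_inv_eq_iff_eq_mul] at h4
      exact h4
    rcases c.dec x hxt with h | h
    · exact c.cen x h hcent
    · have h1 : x * t = 1 := by
        apply c.cen _ h
        intro e he
        have h2 := c.Ecomm e (c.le he)
        calc x * t * e = x * (t * e) := by group
          _ = (x * e) * t := by rw [← h2]; group
          _ = e * (x * t) := by rw [hcent e he]; group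
      have h2 : x = t := by rw [← mul_inv_eq_one, hinvt]; exact h1
      rw [h2, hto] at hxo
      exact absurd hxo (by decide)
  -- inversion
  let φ : X →* X :=
    { toFun := fun x => ⟨t * x * t⁻¹, hXn t htH x x.2⟩
      map_one' := Subtype.ext (by simp)
      map_mul' := fun a b => Subtype.ext (by
        show t * ((a : G) * b) * t⁻¹ = (t * a * t⁻¹) * (t * b * t⁻¹)
        group) }
  have hφ : MonoidHom.FixedPointFree φ := by
    rintro ⟨x, hx⟩ h
    apply Subtype.ext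
    have h1 : t * x * t⁻¹ = x := congrArg Subtype.val h
    apply hfix x hx
    rw [mul_inv_eq_iff_eq_mul] at h1
    exact h1.symm
  have hinvol : Function.Involutive φ := by
    rintro ⟨x, hx⟩
    apply Subtype.ext
    show t * (t * x * t⁻¹) * t⁻¹ = x
    calc t * (t * x * t⁻¹) * t⁻¹ = (t * t) * x * (t * t)⁻¹ := by group
      _ = x := by rw [c.htt]; simp
  have hinv : ∀ x ∈ X, t * x * t⁻¹ = x⁻¹ := by
    intro x hx
    have := congrFun (hφ.coe_eq_inv_of_involutive hinvol) ⟨x, hx⟩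
    exact congrArg Subtype.val this
  have hXc : ∀ x ∈ X, ∀ y ∈ X, x * y = y * x := by
    intro x hx y hy
    have := hφ.commute_all_of_involutive hinvol ⟨x, hx⟩ ⟨y, hy⟩
    exact congrArg Subtype.val this
  -- suppose `X ≠ 1`
  intro x hx
  by_contra hne
  have hy : t * x * t⁻¹ * x⁻¹ ≠ 1 := by
    intro h
    apply hne
    rw [mul_inv_eq_one, mul_inv_eq_iff_eq_mul] at h
    exact h.symm
  have hyX := hzX x hx
  set y := t * x * t⁻¹ * x⁻¹ with hydef
  obtain ⟨a, haV, ha1⟩ : ∃ v ∈ V, v ≠ 1 := by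
    by_contra h
    push Not at h
    have h1 := (Subgroup.eq_bot_iff_forall V).2 h
    have h2 := c.V4
    rw [h1, Subgroup.card_bot] at h2
    omega
  have haa := c.Vexp a haV
  have haT := c.VT a haV
  have hat := c.Tc a haT t c.tT
  -- an involution `u ≠ t` of `T` centralising some `y₀ ≠ 1`
  obtain ⟨u, y₀, huT, hu1, hut, hy₀, hy₀1, hy₀u⟩ : ∃ u y₀ : G, u ∈ (T : Subgroup G) ∧ u ≠ 1 ∧ u ≠ t ∧
      y₀ ∈ X ∧ y₀ ≠ 1 ∧ y₀ * u = u * y₀ := by
    have h1 := hXn a (hTH haT) y hyX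
    have hinva : a⁻¹ = a := inv_eq_of_mul_eq_one_right haa
    by_cases h3 : y * (a * y * a⁻¹) = 1
    · have h4 : a * y * a⁻¹ = y⁻¹ := (inv_eq_of_mul_eq_one_right h3).symm
      refine ⟨a * t, y, mul_mem haT c.tT, ?_, ?_, hyX, hy, ?_⟩
      · intro h
        apply c.tV
        have : t = a⁻¹ := (inv_eq_of_mul_eq_one_right h).symm
        rw [this]; exact V.inv_mem haV
      · intro h
        exact ha1 (mul_eq_right.1 h)
      · have h5 : (a * t) * y * (a * t)⁻¹ = y := by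
          calc (a * t) * y * (a * t)⁻¹ = a * (t * y * t⁻¹) * a⁻¹ := by group
            _ = a * y⁻¹ * a⁻¹ := by rw [hinv y hyX]
            _ = (a * y * a⁻¹)⁻¹ := by group
            _ = y := by rw [h4, inv_inv]
        rw [mul_inv_eq_iff_eq_mul] at h5
        exact h5.symm
    · refine ⟨a, y * (a * y * a⁻¹), haT, ha1, fun h => c.tV (h ▸ haV), X.mul_mem hyX h1, h3, ?_⟩
      have h5 := hXc y hyX _ h1
      rw [hinva] at h5 ⊢
      calc y * (a * y * a) * a = y * a * y * (a * a) := by group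
        _ = y * a * y := by rw [haa, mul_one]
        _ = (a * a) * (y * a * y) := by rw [haa, one_mul]
        _ = a * ((a * y * a) * y) := by group
        _ = a * (y * (a * y * a)) := by rw [h5]
  obtain ⟨g, hg, hgu⟩ := hall u huT hu1
  -- transport
  apply hy₀1
  have hgT : ∀ x, x ∈ (T : Subgroup G) → g⁻¹ * x * g ∈ (T : Subgroup G) := by
    intro x hx
    have := (mem_normalizer_iff.1 (Subgroup.inv_mem _ hg) x).1 hx
    rwa [inv_inv] at this
  set s := g⁻¹ * t * g with hs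
  have hsT : s ∈ (T : Subgroup G) := hgT t c.tT
  have hss : s * s = 1 := by
    calc s * s = g⁻¹ * (t * t) * g := by rw [hs]; group
      _ = 1 := by rw [c.htt]; group
  have hs1 : s ≠ 1 := by
    intro h
    apply c.ht1
    calc t = g * s * g⁻¹ := by rw [hs]; group
      _ = 1 := by rw [h]; group
  have hst : s ≠ t := by
    intro h
    apply hut
    rw [← hgu]
    calc g * t * g⁻¹ = g * s * g⁻¹ := by rw [h]
      _ = t := by rw [hs]; group
  obtain ⟨s', hs', hs'V, hs'1⟩ : ∃ s' : G, (s' = s ∨ s' = s * t) ∧ s' ∈ V ∧ s' ≠ 1 := by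
    rcases c.Tdec hsT with h | h
    · exact ⟨s, Or.inl rfl, h, hs1⟩
    · refine ⟨s * t, Or.inr rfl, h, ?_⟩
      intro h1
      apply hst
      rw [← mul_inv_eq_one, hinvt]; exact h1
  obtain ⟨b, hbV, hb1, hbs⟩ : ∃ b ∈ V, b ≠ 1 ∧ b ≠ s' := by
    by_contra h
    push Not at h
    have h1 : (V : Set G) ⊆ {1, s'} := by
      intro b hb
      by_cases hb1 : b = 1
      · left; exact hb1
      · right; exact h b hb hb1
    have h2 := Set.ncard_le_ncard h1 (Set.toFinite _)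
    have h3 : (V : Set G).ncard = 4 := by rw [← c.V4]; rfl
    have h4 := Set.ncard_insert_le (1 : G) {s'}
    rw [Set.ncard_singleton] at h4
    omega
  have hXg : Odd (Nat.card (X.map (MulAut.conj g⁻¹).toMonoidHom)) := by
    rwa [Subgroup.card_map_of_injective (MulAut.conj g⁻¹).injective]
  have hfin := lemC t c.htt E₀ c.fct (fun e he => c.Ecomm e (c.le he)) c.nor s hss
    (c.Tc s hsT t c.tT) s' hs' (c.VE hs'V) hs'1 b (c.VE hbV) hb1 (c.Vexp b hbV)
    (c.Tc b (c.VT b hbV) s' (c.VT s' hs'V)) hbs (X.map (MulAut.conj g⁻¹).toMonoidHom) hXg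
    (by
      rintro _ ⟨x, hx, rfl⟩ _ ⟨z, hz, rfl⟩
      rw [← map_mul, ← map_mul, hXc x hx z hz])
    (by
      rintro _ ⟨x, hx, rfl⟩
      show s * (g⁻¹ * x * g⁻¹⁻¹) * s⁻¹ = (g⁻¹ * x * g⁻¹⁻¹)⁻¹
      have h1 := hinv x hx
      calc s * (g⁻¹ * x * g⁻¹⁻¹) * s⁻¹ = g⁻¹ * (t * x * t⁻¹) * g := by rw [hs]; group
        _ = (g⁻¹ * x * g⁻¹⁻¹)⁻¹ := by rw [h1]; group)
    (by
      rintro k hk _ ⟨x, hx, rfl⟩
      have h1 : (g * k * g⁻¹) * t = t * (g * k * g⁻¹) := by
        calc (g * k * g⁻¹) * t = g * (k * s) * g⁻¹ := by rw [hs]; group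
          _ = g * (s * k) * g⁻¹ := by rw [hk]
          _ = t * (g * k * g⁻¹) := by rw [hs]; group
      refine ⟨(g * k * g⁻¹) * x * (g * k * g⁻¹)⁻¹, hXn _ (hCH _ h1) x hx, ?_⟩
      show g⁻¹ * ((g * k * g⁻¹) * x * (g * k * g⁻¹)⁻¹) * g⁻¹⁻¹ = k * (g⁻¹ * x * g⁻¹⁻¹) * k⁻¹
      group)
    (g⁻¹ * y₀ * g⁻¹⁻¹) ⟨y₀, hy₀, rfl⟩ (by
      have h1 : u = g * t * g⁻¹ := hgu.symm
      calc g⁻¹ * y₀ * g⁻¹⁻¹ * t = g⁻¹ * (y₀ * u) * g := by rw [h1]; group
        _ = g⁻¹ * (u * y₀) * g := by rw [hy₀u]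
        _ = t * (g⁻¹ * y₀ * g⁻¹⁻¹) := by rw [h1]; group)
  calc y₀ = g * (g⁻¹ * y₀ * g⁻¹⁻¹) * g⁻¹ := by group
    _ = 1 := by rw [hfin]; group

end H37.CMax3
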