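import Cfsg.Agent.Lib.H11.SelfCent4
import Cfsg.Agent.Lib.H58.PSL2V4
import Cfsg.Agent.Lib.H58.SL2Prod
import Cfsg.Agent.Lib.H17.SL2Four
import Cfsg.Agent.Lib.H6.SmallIsoA

/-!
# `PSL(2,F)`, `|F|` odd: the local facts needed for groups with abelian Sylow 2-subgroups
-/

set_option autoImplicit false
set_option maxHeartbeats 1000000

namespace H37.PSLab

open Subgroup Matrix
open scoped MatrixGroups

/-- the facts -/
structure Fct (L : Type*) [Group L] : Prop where
  conj : ∀ a b : L, a ≠ 1 → a * a = 1 → b ≠ 1 → b * b = 1 → ∃ g, g * a * g⁻¹ = b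
  uniq : ∀ y a b : L, y ≠ 1 → Odd (orderOf y) → a ≠ 1 → a * a = 1 → b ≠ 1 → b * b = 1 →
    y * a = a * y → y * b = b * y → a = b
  odd : ∀ K : Subgroup L, K.Normal → Odd (Nat.card K) → K = ⊥
  syl : ∀ P : Sylow 2 L, IsMulCommutative (P : Subgroup L) → Nat.card P = 4 ∧ ∀ x ∈ P, x * x = 1

theorem Fct.congr {L M : Type*} [Group L] [Group M] [Finite L] (e : L ≃* M) (h : Fct M) : Fct L := by
  refine ⟨?_, ?_, ?_, ?_⟩
  · intro a b ha haa hb hbb
    obtain ⟨g, hg⟩ := h.conj (e a) (e b) (by simpa using ha) (by rw [← map_mul, haa, map_one])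
      (by simpa using hb) (by rw [← map_mul, hbb, map_one])
    refine ⟨e.symm g, ?_⟩
    apply e.injective
    rw [map_mul, map_mul, map_inv, e.apply_symm_apply, hg]
  · intro y a b hy hyo ha haa hb hbb hya hyb
    apply e.injective
    exact h.uniq (e y) (e a) (e b) (by simpa using hy) (by rwa [MulEquiv.orderOf_eq])
      (by simpa using ha) (by rw [← map_mul, haa, map_one]) (by simpa using hb)
      (by rw [← map_mul, hbb, map_one]) (by rw [← map_mul, hya, map_mul])
      (by rw [← map_mul, hyb, map_mul])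
  · intro K hK hKo
    have h1 := h.odd (K.map e.toMonoidHom) (hK.map _ e.surjective)
      (by rw [Subgroup.card_map_of_injective (f := e.toMonoidHom) e.injective]; exact hKo)
    exact (Subgroup.map_eq_bot_iff_of_injective K (f := e.toMonoidHom) e.injective).1 h1
  · intro P hP
    have : Fact (Nat.Prime 2) := ⟨Nat.prime_two⟩
    let R : Sylow 2 M := P.mapSurjective (f := e.toMonoidHom) e.surjective
    have hRc : IsMulCommutative (R : Subgroup M) := by
      refine ⟨⟨?_⟩⟩
      rintro ⟨x, a, ha, rfl⟩ ⟨y, b, hb, rfl⟩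
      apply Subtype.ext
      show e a * e b = e b * e a
      rw [← map_mul, ← map_mul]
      congr 1
      exact congrArg Subtype.val (hP.is_comm.comm (⟨a, ha⟩ : (P : Subgroup L)) ⟨b, hb⟩)
    obtain ⟨h1, h2⟩ := h.syl R hRc
    refine ⟨?_, ?_⟩
    · rw [← h1]
      exact (Subgroup.card_map_of_injective (f := e.toMonoidHom) e.injective).symm
    · intro x hx
      apply e.injective
      rw [map_mul, map_one]
      exact h2 (e x) ⟨x, hx, rfl⟩

variable {F : Type*} [Field F]

theorem uniq (h2 : (2 : F) ≠ 0) (y a b : ProjectiveSpecialLinearGroup (Fin 2) F) (hy : y ≠ 1)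
    (hyo : Odd (orderOf y)) (ha1 : a ≠ 1) (ha : a * a = 1) (hb1 : b ≠ 1) (hb : b * b = 1)
    (hya : y * a = a * y) (hyb : y * b = b * y) : a = b := by
  obtain ⟨Y, hY, hYn⟩ : ∃ Y : SL(2, F), (QuotientGroup.mk Y : ProjectiveSpecialLinearGroup (Fin 2) F) = y ∧
      Y ^ orderOf y = 1 := by
    obtain ⟨Y, rfl⟩ := QuotientGroup.mk_surjective y
    set n := orderOf (QuotientGroup.mk Y : ProjectiveSpecialLinearGroup (Fin 2) F) with hn
    have h1 : (QuotientGroup.mk (1 : SL(2, F)) : ProjectiveSpecialLinearGroup (Fin 2) F) =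
        QuotientGroup.mk (Y ^ n) := by
      rw [QuotientGroup.mk_pow, pow_orderOf_eq_one]; rfl
    rcases H11.SelfCent.mk_eq_iff.1 h1 with h | h
    · exact ⟨Y, rfl, h⟩
    · refine ⟨-Y, H11.SelfCent.mk_eq_iff.2 (Or.inr (by rw [neg_neg])), ?_⟩
      rw [Odd.neg_pow hyo, h, neg_neg]
  obtain ⟨A, rfl⟩ := QuotientGroup.mk_surjective a
  obtain ⟨B, rfl⟩ := QuotientGroup.mk_surjective b
  have hAA := H17.SL2Four.lift_invol h2 A ha1 ha
  have hBB := H17.SL2Four.lift_invol h2 B hb1 hb
  have hne : (1 : SL(2, F)) ≠ -1 := H45.SL2.one_ne_neg_one h2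
  have key : ∀ C : SL(2, F), y * QuotientGroup.mk C = QuotientGroup.mk C * y → C * Y = Y * C := by
    intro C hC
    rw [← hY] at hC
    rcases H11.SelfCent.comm_or hC with h | h
    · exact h
    · exfalso
      have h1 : C * Y * C⁻¹ = -Y := by rw [h, neg_mul, mul_inv_cancel_right]
      have h3 := congrArg (fun z => z ^ orderOf y) h1
      simp only [conj_pow, Odd.neg_pow hyo, hYn, mul_one, mul_inv_cancel] at h3
      exact hne h3
  have hA := key A hya
  have hB := key B hyb
  have hns : ¬ H11.SelfCent.Scal Y.1 := by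
    intro h
    apply hy
    rw [← hY]
    obtain ⟨h01, h10, h00⟩ := h
    have hd := Y.2
    rw [det_fin_two, h01, zero_mul, sub_zero, ← h00] at hd
    have h3 : (Y.1 0 0 - 1) * (Y.1 0 0 + 1) = 0 := by linear_combination hd
    have h4 : (QuotientGroup.mk (1 : SL(2, F)) : ProjectiveSpecialLinearGroup (Fin 2) F) =
        QuotientGroup.mk Y := by
      rw [H11.SelfCent.mk_eq_iff]
      rcases mul_eq_zero.1 h3 with h | h
      · left
        have h5 : Y.1 0 0 = 1 := by linear_combination h
        apply Subtype.ext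
        ext i j
        fin_cases i <;> fin_cases j <;> simp [h01, h10, ← h00, h5]
      · right
        have h5 : Y.1 0 0 = -1 := by linear_combination h
        apply Subtype.ext
        ext i j
        fin_cases i <;> fin_cases j <;> simp [h01, h10, ← h00, h5]
    exact h4.symm
  obtain ⟨a1, a2, hA'⟩ := H11.SelfCent.comm_form hns (congrArg Subtype.val hA : A.1 * Y.1 = Y.1 * A.1)
  obtain ⟨b1, b2, hB'⟩ := H11.SelfCent.comm_form hns (congrArg Subtype.val hB : B.1 * Y.1 = Y.1 * B.1)
  have hAB : A * B = B * A := by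
    apply Subtype.ext
    show A.1 * B.1 = B.1 * A.1
    rw [hA', hB']
    simp only [add_mul, mul_add, smul_mul_assoc, mul_smul_comm, one_mul, mul_one, smul_smul, smul_add]
    rw [mul_comm a1 b1, mul_comm a1 b2, mul_comm a2 b1, mul_comm a2 b2]
    abel
  have hD : (A * B⁻¹) * (A * B⁻¹) = 1 := by
    have h1 : B⁻¹ * A = A * B⁻¹ := by
      rw [inv_mul_eq_iff_eq_mul, ← mul_assoc, ← hAB, mul_inv_cancel_right]
    calc (A * B⁻¹) * (A * B⁻¹) = A * (B⁻¹ * A) * B⁻¹ := by group
      _ = A * A * (B * B)⁻¹ := by rw [h1]; group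
      _ = 1 := by rw [hAA, hBB, mul_inv_cancel]
  rw [H11.SelfCent.mk_eq_iff]
  rcases H58.SL2Prod.eq_one_or_neg_one_of_sq h2 hD with h | h
  · left
    rw [mul_inv_eq_one] at h
    exact h.symm
  · right
    rw [mul_inv_eq_iff_eq_mul] at h
    rw [h, neg_mul, one_mul, neg_neg]

theorem conj [Finite F] (h2 : (2 : F) ≠ 0) (a b : ProjectiveSpecialLinearGroup (Fin 2) F)
    (ha1 : a ≠ 1) (ha : a * a = 1) (hb1 : b ≠ 1) (hb : b * b = 1) : ∃ g, g * a * g⁻¹ = b := by
  obtain ⟨A, rfl⟩ := QuotientGroup.mk_surjective a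
  obtain ⟨B, rfl⟩ := QuotientGroup.mk_surjective b
  have hAA := H17.SL2Four.lift_invol h2 A ha1 ha
  have hBB := H17.SL2Four.lift_invol h2 B hb1 hb
  obtain ⟨g, hg⟩ := isConj_iff.1 (H58.SL2Prod.isConj_of_sq h2 hAA hBB)
  exact ⟨QuotientGroup.mk g, by rw [← hg]; rfl⟩

theorem odd [Fintype F] (hF : Odd (Fintype.card F))
    (K : Subgroup (ProjectiveSpecialLinearGroup (Fin 2) F)) (hK : K.Normal)
    (hKo : Odd (Nat.card K)) : K = ⊥ := by
  have h2 : (2 : F) ≠ 0 := H58.SL2Prod.two_ne_zero_of_odd hF
  obtain ⟨a, w, haa, hww, ha1, hw1, haw, hcom, -⟩ := H58.PSL2V4.exists_v4 (F := F) h2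
  have hnot : ∀ K : Subgroup (ProjectiveSpecialLinearGroup (Fin 2) F), Odd (Nat.card K) →
      ∀ x : ProjectiveSpecialLinearGroup (Fin 2) F, x * x = 1 → x ∈ K → x = 1 := by
    intro K hKo x hx hxK
    have h1 : orderOf x ∣ 2 := orderOf_dvd_of_pow_eq_one (by rw [sq]; exact hx)
    have h3 : orderOf x ∣ Nat.card K := by
      have := orderOf_dvd_natCard (⟨x, hxK⟩ : K)
      rwa [Subgroup.orderOf_mk] at this
    have h4 : Odd (orderOf x) := Odd.of_dvd_nat hKo h3
    rcases (Nat.dvd_prime Nat.prime_two).1 h1 with h5 | h5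
    · exact orderOf_eq_one_iff.1 h5
    · rw [h5] at h4; exact absurd h4 (by decide)
  by_cases hF3 : 3 < Fintype.card F
  · have hsimp : IsSimpleGroup (Matrix.ProjectiveSpecialLinearGroup (Fin 2) F) :=
      Matrix.ProjectiveSpecialLinearGroup.rank_two_simple (by
        rw [Nat.card_eq_fintype_card]; omega)
    rcases IsSimpleGroup.eq_bot_or_eq_top_of_normal K hK with h | h
    · exact h
    · exfalso
      exact ha1 (hnot K hKo a haa (by rw [h]; trivial))
  · have hc3 : Fintype.card F = 3 := by
      have h1 : 1 < Fintype.card F := Fintype.one_lt_card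
      rcases hF with ⟨k, hk⟩
      omega
    have hcard : Nat.card (ProjectiveSpecialLinearGroup (Fin 2) F) = 12 := by
      have h := H6.SmallIsoA.card_psl2 (F := F)
      rw [hc3] at h
      norm_num at h
      omega
    by_contra hne
    have hK3 : Nat.card K = 3 := by
      have h1 : Nat.card K ∣ 12 := by rw [← hcard]; exact Subgroup.card_subgroup_dvd_card K
      have h3 : Nat.card K ≤ 12 := Nat.le_of_dvd (by norm_num) h1
      have h4 : Nat.card K ≠ 1 := fun h => hne (Subgroup.card_eq_one.1 h)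
      interval_cases (Nat.card K) <;> first | rfl | (exfalso; revert h1 h4 hKo; decide)
    -- an element of order 3
    obtain ⟨y, hyK, hy1⟩ : ∃ y ∈ K, y ≠ 1 := by
      by_contra h
      push Not at h
      exact hne ((Subgroup.eq_bot_iff_forall K).2 h)
    have hord : orderOf y = 3 := by
      have h3 : orderOf y ∣ Nat.card K := by
        have := orderOf_dvd_natCard (⟨y, hyK⟩ : K)
        rwa [Subgroup.orderOf_mk] at this
      rw [hK3] at h3
      rcases (Nat.dvd_prime Nat.prime_three).1 h3 with h5 | h5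
      · exact absurd (orderOf_eq_one_iff.1 h5) hy1
      · exact h5
    have hyy : y * y ≠ 1 := by
      intro h
      have := orderOf_dvd_of_pow_eq_one (x := y) (n := 2) (by rw [sq]; exact h)
      rw [hord] at this
      omega
    have hyne : y ≠ y * y := by
      intro h
      apply hy1
      have h' : y * 1 = y * y := by rw [mul_one]; exact h
      exact (mul_left_cancel h').symm
    have hKmem : ∀ x ∈ K, x = 1 ∨ x = y ∨ x = y * y := by
      intro x hx
      have hz : zpowers y = K := by
        apply Subgroup.eq_of_le_of_card_ge (by rw [zpowers_le]; exact hyK)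
        rw [Nat.card_zpowers, hord, hK3]
      rw [← hz, mem_zpowers_iff] at hx
      obtain ⟨k, rfl⟩ := hx
      have h1 : y ^ k = y ^ (k % 3) := by
        have := zpow_mod_orderOf y k
        rw [hord] at this
        exact_mod_cast this.symm
      have h3 : k % 3 = 0 ∨ k % 3 = 1 ∨ k % 3 = 2 := by omega
      rw [h1]
      rcases h3 with h | h | h
      · left; rw [h, zpow_zero]
      · right; left; rw [h, zpow_one]
      · right; right; rw [h, zpow_two]
    have hconj : ∀ u : ProjectiveSpecialLinearGroup (Fin 2) F, u * y * u⁻¹ = y ∨ u * y * u⁻¹ = y * y := by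
      intro u
      rcases hKmem _ (hK.conj_mem y hyK u) with h | h | h
      · exfalso
        apply hy1
        rwa [conj_eq_one_iff] at h
      · exact Or.inl h
      · exact Or.inr h
    -- one of `a, w, aw` centralises `y`
    obtain ⟨u, huu, hu1, huy⟩ : ∃ u : ProjectiveSpecialLinearGroup (Fin 2) F,
        u * u = 1 ∧ u ≠ 1 ∧ u * y * u⁻¹ = y := by
      rcases hconj a with h | h
      · exact ⟨a, haa, ha1, h⟩
      · rcases hconj w with h' | h'
        · exact ⟨w, hww, hw1, h'⟩
        · refine ⟨a * w, ?_, ?_, ?_⟩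
          · calc a * w * (a * w) = a * w * (w * a) := by rw [hcom]
              _ = a * (w * w) * a := by group
              _ = 1 := by rw [hww, mul_one, haa]
          · intro h1
            apply haw
            rw [← mul_inv_eq_one, inv_eq_of_mul_eq_one_right hww]
            exact h1
          · calc a * w * y * (a * w)⁻¹ = a * (w * y * w⁻¹) * a⁻¹ := by group
              _ = (a * y * a⁻¹) * (a * y * a⁻¹) := by rw [h']; group
              _ = y * y * (y * y) := by rw [h]
              _ = y ^ 3 * y := by simp only [pow_succ, pow_zero, one_mul, mul_assoc]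
              _ = y := by rw [← hord, pow_orderOf_eq_one, one_mul]
    have hall : ∀ v : ProjectiveSpecialLinearGroup (Fin 2) F, v ≠ 1 → v * v = 1 → y * v = v * y := by
      intro v hv1 hvv
      obtain ⟨g, hg⟩ := conj h2 u v hu1 huu hv1 hvv
      have huc : ∀ k ∈ K, u * k = k * u := by
        have h0 : u * y = y * u := by
          have := congrArg (fun z => z * u) huy
          simpa using this
        intro k hk
        rcases hKmem k hk with rfl | rfl | rfl
        · simp
        · exact h0
        · rw [← mul_assoc, h0, mul_assoc, h0, mul_assoc]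
      have h1 := huc (g⁻¹ * y * g) (by simpa using hK.conj_mem y hyK g⁻¹)
      rw [← hg]
      calc y * (g * u * g⁻¹) = g * ((g⁻¹ * y * g) * u) * g⁻¹ := by group
        _ = g * (u * (g⁻¹ * y * g)) * g⁻¹ := by rw [h1]
        _ = g * u * g⁻¹ * y := by group
    exact haw (uniq h2 y a w hy1 (by rw [hord]; decide) ha1 haa hw1 hww (hall a ha1 haa) (hall w hw1 hww))

theorem fct [Fintype F] (hF : Odd (Fintype.card F)) : Fct (ProjectiveSpecialLinearGroup (Fin 2) F) := by
  have h2 : (2 : F) ≠ 0 := H58.SL2Prod.two_ne_zero_of_odd hF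
  exact ⟨conj h2, uniq h2, odd hF, H58.PSL2V4.sylow_two h2⟩

end H37.PSLab
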